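import Mathlib
import Cfsg.Agent.Base

/-! Finite facts about the alternating groups of degree five and six. -/

set_option autoImplicit false

namespace H8.Six

open Equiv

abbrev A5 := alternatingGroup (Fin 5)

theorem a5_d10 : ∀ σ : A5, σ * σ = 1 → σ ≠ 1 → ∃ τ : A5, τ ^ 5 = 1 ∧ τ ≠ 1 ∧ τ * σ * τ = σ := by
  decide +kernel

theorem a5_four : ∀ σ : A5, σ ^ 4 = 1 → σ * σ = 1 := by decide +kernel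

set_option synthInstance.maxSize 4096 in
set_option synthInstance.maxHeartbeats 400000 in
theorem a5_v4 : ∀ σ : A5, σ * σ = 1 → σ ≠ 1 → ∀ τ : A5, τ * τ = 1 → τ ≠ 1 → σ * τ ≠ 1 →
    σ * τ * (σ * τ) = 1 → ∀ ρ : A5, ρ * ρ = 1 → ρ * σ * (ρ * σ) = 1 →
    ρ = 1 ∨ ρ * σ = 1 ∨ ρ * τ = 1 ∨ ρ * (σ * τ) = 1 := by decide +kernel

theorem a5_x3 : ∀ σ : A5, σ * σ = 1 → σ ≠ 1 → ∀ τ : A5, τ * τ = 1 → τ ≠ 1 → σ * τ ≠ 1 →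
    σ * τ * (σ * τ) = 1 → ∃ ξ : A5, ξ ^ 3 = 1 ∧ ξ * σ * ξ⁻¹ = τ ∧ ξ * τ * ξ⁻¹ = σ * τ := by
  decide +kernel

theorem a5_conj : ∀ σ : A5, σ * σ = 1 → σ ≠ 1 → ∀ τ : A5, τ * τ = 1 → τ ≠ 1 →
    ∃ η : A5, η * σ * η⁻¹ = τ := by decide +kernel

set_option synthInstance.maxSize 4096 in
set_option synthInstance.maxHeartbeats 400000 in
theorem a5_three : ∀ σ : A5, σ * σ = 1 → σ ≠ 1 → ∀ τ : A5, τ * τ = 1 → τ ≠ 1 → σ * τ ≠ 1 →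
    σ * τ * (σ * τ) = 1 → ∀ ξ : A5, ξ ^ 3 = 1 → ξ ≠ 1 →
    (∃ a ∈ [σ, τ, σ * τ], ∃ b ∈ [σ, τ, σ * τ],
      (a * (ξ * b * ξ⁻¹)) ^ 5 = 1 ∧ a * (ξ * b * ξ⁻¹) ≠ 1) ∨
    (ξ⁻¹ * σ * ξ ∈ [σ, τ, σ * τ] ∧ ∃ η : A5, η⁻¹ * ξ * η * ξ = 1 ∧
      ∃ a ∈ [σ, τ, σ * τ], ∃ b ∈ [σ, τ, σ * τ],
        (a * (η * b * η⁻¹)) ^ 5 = 1 ∧ a * (η * b * η⁻¹) ≠ 1) := by decide +kernel

theorem a5_exists_inv : ∃ σ : A5, σ * σ = 1 ∧ σ ≠ 1 := by decide +kernel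

theorem a5_a4 : ∃ σ τ ξ : A5, σ * σ = 1 ∧ σ ≠ 1 ∧ τ * τ = 1 ∧ τ ≠ 1 ∧ σ * τ ≠ 1 ∧
    σ * τ = τ * σ ∧ ξ ^ 3 = 1 ∧ ξ * σ * ξ⁻¹ = τ ∧ ξ * τ * ξ⁻¹ = σ * τ := by decide +kernel

theorem card_A5 : Nat.card A5 = 60 := by
  rw [nat_card_alternatingGroup]; simp [Nat.factorial]

end H8.Six
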