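import Mathlib
import Cfsg.Agent.Base
import Cfsg.Agent.Lib.Six8.A5

/-! Finite facts about the alternating group of degree six; small Frobenius subgroups. -/

set_option autoImplicit false

namespace H8.Six

open Equiv Equiv.Perm

abbrev A6 := alternatingGroup (Fin 6)

/-- An even permutation as an element of the alternating group. -/
def ev {n : ℕ} (σ : Perm (Fin n)) (h : sign σ = 1 := by decide) : alternatingGroup (Fin n) :=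
  ⟨σ, mem_alternatingGroup.2 h⟩

def z0 : A6 := ev (swap 0 1 * swap 2 3)
def a0 : A6 := ev (swap 0 2 * swap 1 3)
def y0 : A6 := ev (swap 1 2 * swap 2 3)

theorem a6_conj (σ : A6) (h1 : σ * σ = 1) (h2 : σ ≠ 1) : ∃ τ : A6, τ * z0 = σ * τ := by
  have h : ∀ σ : Perm (Fin 6), σ * σ = 1 → σ ≠ 1 → Perm.sign σ = 1 →
      ∃ τ : Perm (Fin 6), Perm.sign τ = 1 ∧ τ * (swap 0 1 * swap 2 3) = σ * τ := by decide +kernel
  obtain ⟨τ, hτ, e⟩ := h σ.1 (congrArg Subtype.val h1) (fun e => h2 (Subtype.ext e)) σ.2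
  exact ⟨⟨τ, hτ⟩, Subtype.ext e⟩

theorem a6_k : ∀ σ : A6, σ * z0 = z0 * σ → σ * σ = 1 → σ ≠ 1 → σ ≠ z0 →
    (∀ w : A6, w * z0 = σ * w → w ^ 3 = 1 → w.1.support.card = 3) ∨ a0 * σ * (a0 * σ) = z0 := by
  decide +kernel

theorem a6_r : ∀ σ : A6, σ * σ = z0 → ∀ τ : A6, τ * τ = z0 → τ = σ ∨ τ = σ⁻¹ := by decide +kernel

theorem a6_six : ∀ σ : A6, σ ^ 6 = 1 → σ ^ 2 = 1 ∨ σ ^ 3 = 1 := by decide +kernel

theorem a6_zay : z0 * z0 = 1 ∧ z0 ≠ 1 ∧ a0 * a0 = 1 ∧ a0 ≠ 1 ∧ a0 ≠ z0 ∧ a0 * z0 = z0 * a0 ∧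
    y0 * z0 = a0 * y0 ∧ y0 ^ 3 = 1 ∧ y0.1.support.card = 3 := by decide +kernel

/-- A Frobenius subgroup `N⟨c⟩` with `c` of order `n`, kernel of order prime to `p`, and with an
element of order five in the normal closure of the kernel. -/
def HasFr (K : Type*) [Group K] (n p : ℕ) : Prop :=
  ∃ (N : Subgroup K) (c : K), c ^ n = 1 ∧ (∀ a ∈ N, c * a * c⁻¹ ∈ N) ∧
    (∀ i, 0 < i → i < n → ∀ a ∈ N, c ^ i * a = a * c ^ i → a = 1) ∧ ¬ p ∣ Nat.card N ∧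
    ∃ a ∈ N, ∃ η : K, (a * (η * a * η⁻¹)) ^ 5 = 1 ∧ a * (η * a * η⁻¹) ≠ 1

theorem HasFr.map {K K' : Type*} [Group K] [Group K'] {n p : ℕ} (h : HasFr K n p) {f : K →* K'}
    (hf : Function.Injective f) : HasFr K' n p := by
  obtain ⟨N, c, h1, h2, h3, h4, a, ha, η, h5, h6⟩ := h
  refine ⟨N.map f, f c, by rw [← map_pow, h1, map_one], ?_, ?_,
    by rwa [Subgroup.card_map_of_injective hf], f a, ⟨a, ha, rfl⟩, f η, ?_, ?_⟩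
  · rintro _ ⟨b, hb, rfl⟩
    exact ⟨_, h2 b hb, by simp⟩
  · rintro i hi hn _ ⟨b, hb, rfl⟩ e
    rw [h3 i hi hn b hb (hf (by simpa using e)), map_one]
  · simpa using congrArg f h5
  · exact fun e => h6 (hf (by simpa using e))

theorem hasFr_of_list {K : Type*} [Group K] [Finite K] (L : List K) (c a η : K) (n p e : ℕ)
    (hp : p.Prime) (he : ¬ p ∣ e)
    (h : 1 ∈ L ∧ (∀ x ∈ L, ∀ y ∈ L, x * y ∈ L) ∧ (∀ x ∈ L, x⁻¹ ∈ L) ∧ c ^ n = 1 ∧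
      (∀ x ∈ L, c * x * c⁻¹ ∈ L) ∧
      (∀ i ∈ List.range n, 0 < i → ∀ x ∈ L, c ^ i * x = x * c ^ i → x = 1) ∧ (∀ x ∈ L, x ^ e = 1) ∧
      a ∈ L ∧ (a * (η * a * η⁻¹)) ^ 5 = 1 ∧ a * (η * a * η⁻¹) ≠ 1) : HasFr K n p := by
  obtain ⟨h1, h2, h3, h4, h5, h6, h7, h8, h9, h10⟩ := h
  let N : Subgroup K := ⟨⟨⟨{x | x ∈ L}, fun hx hy => h2 _ hx _ hy⟩, h1⟩, fun hx => h3 _ hx⟩
  refine ⟨N, c, h4, h5, fun i hi hn => h6 i (List.mem_range.2 hn) hi, fun hd => he ?_, a, h8, η,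
    h9, h10⟩
  haveI := Fact.mk hp
  obtain ⟨x, hx⟩ := exists_prime_orderOf_dvd_card' p hd
  rw [← hx]
  exact orderOf_dvd_of_pow_eq_one (Subtype.ext (h7 x x.2))

theorem fr_A5 : HasFr A5 3 3 :=
  hasFr_of_list [1, ev (swap 0 1 * swap 2 3), ev (swap 0 2 * swap 1 3), ev (swap 0 3 * swap 1 2)]
    (ev (swap 1 2 * swap 2 3)) (ev (swap 0 1 * swap 2 3)) (ev c[0, 1, 2, 3, 4]) 3 3 2
    Nat.prime_three (by norm_num)
    (by refine ⟨?_, ?_, ?_, ?_, ?_, ?_, ?_, ?_, ?_, ?_⟩ <;> decide +kernel)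

theorem fr_A6 : HasFr A6 3 3 :=
  hasFr_of_list [1, ev (swap 0 1 * swap 2 3), ev (swap 0 2 * swap 1 3), ev (swap 0 3 * swap 1 2)]
    (ev (swap 1 2 * swap 2 3)) (ev (swap 0 1 * swap 2 3)) (ev c[0, 1, 2, 3, 4]) 3 3 2
    Nat.prime_three (by norm_num)
    (by refine ⟨?_, ?_, ?_, ?_, ?_, ?_, ?_, ?_, ?_, ?_⟩ <;> decide +kernel)

theorem fr_A6' : HasFr A6 4 2 :=
  let a : A6 := ev c[0, 1, 2]
  let b : A6 := ev c[3, 4, 5]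
  hasFr_of_list [1, a, a⁻¹, b, b⁻¹, a * b, a * b⁻¹, a⁻¹ * b, a⁻¹ * b⁻¹]
    (ev (c[0, 3] * c[1, 4, 2, 5])) a (ev (c[0, 3] * c[1, 4])) 4 2 3 Nat.prime_two (by norm_num)
    (by refine ⟨?_, ?_, ?_, ?_, ?_, ?_, ?_, ?_, ?_, ?_⟩ <;> decide +kernel)

theorem fr_S5 : HasFr (Perm (Fin 5)) 4 2 :=
  let a : Perm (Fin 5) := c[0, 1, 2, 3, 4]
  hasFr_of_list [1, a, a ^ 2, a ^ 3, a ^ 4] c[1, 2, 4, 3] a 1 4 2 5 Nat.prime_two (by norm_num)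
    (by refine ⟨?_, ?_, ?_, ?_, ?_, ?_, ?_, ?_, ?_, ?_⟩ <;> decide +kernel)

end H8.Six
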