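import Mathlib
import Cfsg.Agent.Base
import Cfsg.Agent.Lib.Char.BurnsidePQ
import Cfsg.Agent.Lib.FGS.NormLem
import Cfsg.Agent.Lib.Core.Fitting
import Cfsg.Agent.Lib.Core.MinNormal

/-!
Finite groups whose elements have order at most six: elementary consequences, and the norm
argument for Frobenius groups acting on an abelian normal subgroup.
-/

set_option autoImplicit false

namespace H8.Six

open Subgroup
open scoped IsMulCommutative

/-- All elements have order at most six. -/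
def Ok (G : Type*) [Group G] : Prop := ∀ g : G, orderOf g ≤ 6

variable {G : Type*} [Group G]

theorem Ok.of_injective {H : Type*} [Group H] (h : Ok G) {f : H →* G}
    (hf : Function.Injective f) : Ok H := fun x => by
  rw [← orderOf_injective f hf x]; exact h _

theorem Ok.sub (h : Ok G) (H : Subgroup G) : Ok H := h.of_injective H.subtype_injective

variable [Finite G]

theorem Ok.of_surjective {K : Type*} [Group K] (h : Ok G) {f : G →* K}
    (hf : Function.Surjective f) : Ok K := fun x => by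
  obtain ⟨g, rfl⟩ := hf x
  exact (Nat.le_of_dvd (orderOf_pos g) (orderOf_map_dvd f g)).trans (h g)

theorem Ok.quot (h : Ok G) (N : Subgroup G) [N.Normal] : Ok (G ⧸ N) :=
  h.of_surjective (QuotientGroup.mk'_surjective N)

theorem Ok.cases (h : Ok G) (g : G) : g ^ 4 = 1 ∨ g ^ 5 = 1 ∨ g ^ 6 = 1 := by
  simp only [← orderOf_dvd_iff_pow_eq_one]
  have h1 := h g
  have h2 := orderOf_pos g
  interval_cases orderOf g <;> simp

theorem Ok.pow60 (h : Ok G) (g : G) : g ^ 60 = 1 := by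
  rcases h.cases g with e | e | e
  · rw [show 60 = 4 * 15 from rfl, pow_mul, e, one_pow]
  · rw [show 60 = 5 * 12 from rfl, pow_mul, e, one_pow]
  · rw [show 60 = 6 * 10 from rfl, pow_mul, e, one_pow]

theorem Ok.pow4 (h : Ok G) {g : G} {k : ℕ} (hg : g ^ 2 ^ k = 1) : g ^ 4 = 1 := by
  have h1 := pow_gcd_eq_one.2 ⟨hg, h.pow60 g⟩
  have h2 : Nat.gcd (2 ^ k) 60 ∣ 4 := by
    have : Nat.gcd (2 ^ k) (4 * 15) = Nat.gcd (2 ^ k) 4 :=
      Nat.Coprime.gcd_mul_right_cancel_right 4 (Nat.Coprime.pow_right k (by norm_num))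
    rw [show 60 = 4 * 15 from rfl, this]; exact Nat.gcd_dvd_right _ _
  obtain ⟨c, hc⟩ := h2
  rw [hc, pow_mul, h1, one_pow]

theorem Ok.pow3 (h : Ok G) {g : G} {k : ℕ} (hg : g ^ 3 ^ k = 1) : g ^ 3 = 1 := by
  have h1 := pow_gcd_eq_one.2 ⟨hg, h.pow60 g⟩
  have h2 : Nat.gcd (3 ^ k) 60 ∣ 3 := by
    have : Nat.gcd (3 ^ k) (3 * 20) = Nat.gcd (3 ^ k) 3 :=
      Nat.Coprime.gcd_mul_right_cancel_right 3 (Nat.Coprime.pow_right k (by norm_num))
    rw [show 60 = 3 * 20 from rfl, this]; exact Nat.gcd_dvd_right _ _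
  obtain ⟨c, hc⟩ := h2
  rw [hc, pow_mul, h1, one_pow]

theorem Ok.pow5 (h : Ok G) {g : G} {k : ℕ} (hg : g ^ 5 ^ k = 1) : g ^ 5 = 1 := by
  have h1 := pow_gcd_eq_one.2 ⟨hg, h.pow60 g⟩
  have h2 : Nat.gcd (5 ^ k) 60 ∣ 5 := by
    have : Nat.gcd (5 ^ k) (5 * 12) = Nat.gcd (5 ^ k) 5 :=
      Nat.Coprime.gcd_mul_right_cancel_right 5 (Nat.Coprime.pow_right k (by norm_num))
    rw [show 60 = 5 * 12 from rfl, this]; exact Nat.gcd_dvd_right _ _
  obtain ⟨c, hc⟩ := h2
  rw [hc, pow_mul, h1, one_pow]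

omit [Finite G] in
theorem exists_pow_of_mem {p : ℕ} {P : Subgroup G} (hP : IsPGroup p P) {g : G} (hg : g ∈ P) :
    ∃ k, g ^ p ^ k = 1 := by
  obtain ⟨k, hk⟩ := hP ⟨g, hg⟩
  exact ⟨k, by simpa using congrArg Subtype.val hk⟩

theorem Ok.pow4_mem (h : Ok G) {P : Subgroup G} (hP : IsPGroup 2 P) {g : G} (hg : g ∈ P) :
    g ^ 4 = 1 := let ⟨_, hk⟩ := exists_pow_of_mem hP hg; h.pow4 hk

theorem Ok.pow3_mem (h : Ok G) {P : Subgroup G} (hP : IsPGroup 3 P) {g : G} (hg : g ∈ P) :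
    g ^ 3 = 1 := let ⟨_, hk⟩ := exists_pow_of_mem hP hg; h.pow3 hk

theorem Ok.pow5_mem (h : Ok G) {P : Subgroup G} (hP : IsPGroup 5 P) {g : G} (hg : g ∈ P) :
    g ^ 5 = 1 := let ⟨_, hk⟩ := exists_pow_of_mem hP hg; h.pow5 hk

omit [Finite G] in
theorem isPGroup_of_pow {p k : ℕ} {P : Subgroup G} (h : ∀ g ∈ P, g ^ p ^ k = 1) : IsPGroup p P :=
  fun g => ⟨k, Subtype.ext (by simpa using h g g.2)⟩

omit [Finite G] in
theorem eq_one_of_pow {g : G} {a b : ℕ} (ha : g ^ a = 1) (hb : g ^ b = 1)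
    (h : Nat.Coprime a b) : g = 1 := by
  have := pow_gcd_eq_one.2 ⟨ha, hb⟩
  rwa [h, pow_one] at this

/-- An element of order five only commutes with elements of order dividing five. -/
theorem Ok.comm5 (h : Ok G) {u g : G} (hu : u ^ 5 = 1) (hu1 : u ≠ 1) (hc : g * u = u * g) :
    g ^ 5 = 1 := by
  haveI := Fact.mk Nat.prime_five
  have ho : orderOf u = 5 := orderOf_eq_prime hu hu1
  by_contra h5
  have h1 := h g
  have h2 := orderOf_pos g
  have h3 : ¬ orderOf g ∣ 5 := fun e => h5 (orderOf_dvd_iff_pow_eq_one.1 e)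
  have hcop : (orderOf g).Coprime (orderOf u) := by
    rw [ho]; interval_cases orderOf g <;> simp_all <;> norm_num
  have h4 := h (g * u)
  rw [(show Commute g u from hc).orderOf_mul_eq_mul_orderOf_of_coprime hcop, ho] at h4
  interval_cases orderOf g <;> simp_all

theorem Ok.eq_one_of_comm5 (h : Ok G) {u g : G} {n : ℕ} (hu : u ^ 5 = 1) (hu1 : u ≠ 1)
    (hc : g * u = u * g) (hn : g ^ n = 1) (hcop : Nat.Coprime n 5) : g = 1 :=
  eq_one_of_pow hn (h.comm5 hu hu1 hc) hcop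

/-- A `2`-element commuting with an element of order three has order at most two. -/
theorem Ok.comm3 (h : Ok G) {y a : G} (hy : y ^ 3 = 1) (hy1 : y ≠ 1) (hc : a * y = y * a)
    (ha : a ^ 4 = 1) : a ^ 2 = 1 := by
  haveI := Fact.mk Nat.prime_three
  have ho : orderOf y = 3 := orderOf_eq_prime hy hy1
  by_contra h2
  have h3 : orderOf a = 4 := by
    have := orderOf_eq_prime_pow (p := 2) (n := 1) (x := a) (by simpa using h2) (by simpa using ha)
    simpa using this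
  have h4 := h (a * y)
  rw [(show Commute a y from hc).orderOf_mul_eq_mul_orderOf_of_coprime (by rw [ho, h3]; norm_num),
    ho, h3] at h4
  omega

theorem Ok.prime_dvd (h : Ok G) {p : ℕ} (hp : p.Prime) (hd : p ∣ Nat.card G) :
    p = 2 ∨ p = 3 ∨ p = 5 := by
  haveI := Fact.mk hp
  obtain ⟨g, hg⟩ := exists_prime_orderOf_dvd_card' p hd
  have h1 := h g
  rw [hg] at h1
  have h2 := hp.two_le
  interval_cases p <;> simp_all (config := { decide := true })

theorem Ok.solvable (h : Ok G) (h5 : ¬ 5 ∣ Nat.card G) : Group.IsSolvable G :=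
  H8.isSolvable_of_two_primes Nat.prime_two Nat.prime_three fun r hr hd => by
    rcases h.prime_dvd hr hd with e | e | e
    exacts [Or.inl e, Or.inr e, absurd (e ▸ hd) h5]

theorem exists_five (h5 : 5 ∣ Nat.card G) : ∃ u : G, u ^ 5 = 1 ∧ u ≠ 1 := by
  haveI := Fact.mk Nat.prime_five
  obtain ⟨g, hg⟩ := exists_prime_orderOf_dvd_card' 5 h5
  exact ⟨g, hg ▸ pow_orderOf_eq_one g, fun e => by simp [e] at hg⟩

theorem five_dvd {H : Subgroup G} {u : G} (hu : u ^ 5 = 1) (hu1 : u ≠ 1) (huH : u ∈ H) :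
    5 ∣ Nat.card H := by
  haveI := Fact.mk Nat.prime_five
  exact orderOf_eq_prime hu hu1 ▸ H.orderOf_dvd_natCard huH

theorem exists_five_mem {H : Subgroup G} (h5 : 5 ∣ Nat.card H) :
    ∃ u ∈ H, u ^ 5 = 1 ∧ u ≠ 1 := by
  obtain ⟨u, h1, h2⟩ := exists_five h5
  exact ⟨u, u.2, by simpa using congrArg Subtype.val h1, fun e => h2 (Subtype.ext e)⟩

/-- Lifting an element of prime power order. -/
theorem exists_lift {K : Type*} [Group K] {f : G →* K} (hf : Function.Surjective f) {p : ℕ}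
    (hp : p.Prime) {x : K} {k : ℕ} (hx : x ^ p ^ k = 1) : ∃ g : G, f g = x ∧ ∃ j, g ^ p ^ j = 1 := by
  obtain ⟨g, rfl⟩ := hf x
  obtain ⟨j, m, hm, e⟩ := Nat.exists_eq_pow_mul_and_not_dvd (orderOf_pos g).ne' p hp.ne_one
  have hcop : Nat.Coprime m (p ^ k) :=
    Nat.Coprime.pow_right k ((Nat.Prime.coprime_iff_not_dvd hp).2 hm).symm
  obtain ⟨c, hc⟩ : ∃ c, m * c ≡ 1 [MOD p ^ k] := by
    rcases Nat.eq_zero_or_pos k with rfl | hk
    · exact ⟨0, by simp [Nat.modEq_one]⟩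
    · obtain ⟨c, -, hc⟩ := Nat.exists_mul_mod_eq_one_of_coprime hcop (Nat.one_lt_pow hk.ne' hp.one_lt)
      exact ⟨c, by rw [Nat.ModEq, hc, Nat.mod_eq_of_lt (Nat.one_lt_pow hk.ne' hp.one_lt)]⟩
  refine ⟨g ^ (m * c), ?_, j, ?_⟩
  · rw [map_pow, pow_eq_pow_mod _ hx, hc, ← pow_eq_pow_mod _ hx, pow_one]
  · rw [← pow_mul, show m * c * p ^ j = p ^ j * m * c by ring, ← e, pow_mul, pow_orderOf_eq_one,
      one_pow]

theorem Ok.lift4 (h : Ok G) {K : Type*} [Group K] {f : G →* K} (hf : Function.Surjective f)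
    {x : K} (hx : x ^ 4 = 1) : ∃ g : G, f g = x ∧ g ^ 4 = 1 := by
  obtain ⟨g, e, j, hj⟩ := exists_lift hf Nat.prime_two (k := 2) hx
  exact ⟨g, e, h.pow4 hj⟩

theorem Ok.lift3 (h : Ok G) {K : Type*} [Group K] {f : G →* K} (hf : Function.Surjective f)
    {x : K} (hx : x ^ 3 = 1) : ∃ g : G, f g = x ∧ g ^ 3 = 1 := by
  obtain ⟨g, e, j, hj⟩ := exists_lift hf Nat.prime_three (k := 1) (by simpa using hx)
  exact ⟨g, e, h.pow3 hj⟩

theorem Ok.lift5 (h : Ok G) {K : Type*} [Group K] {f : G →* K} (hf : Function.Surjective f)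
    {x : K} (hx : x ^ 5 = 1) : ∃ g : G, f g = x ∧ g ^ 5 = 1 := by
  obtain ⟨g, e, j, hj⟩ := exists_lift hf Nat.prime_five (k := 1) (by simpa using hx)
  exact ⟨g, e, h.pow5 hj⟩

/-! ### The norm argument -/

theorem frob_ring {K R : Type*} [Group K] [Finite K] [Ring R] (ρ : K →* R) (N : Subgroup K)
    (c : K) (n : ℕ) (hn : 0 < n) (hN : ∀ a ∈ N, c * a * c⁻¹ ∈ N)
    (hf : ∀ i, 0 < i → i < n → ∀ a ∈ N, c ^ i * a = a * c ^ i → a = 1)
    (h0 : ∑ i ∈ Finset.range n, ρ (c ^ i) = 0) :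
    ∀ a ∈ N, ρ a * (Nat.card N : R) = Nat.card N := by
  classical
  haveI := Fintype.ofFinite N
  have hNi : ∀ i : ℕ, ∀ a ∈ N, c ^ i * a * (c ^ i)⁻¹ ∈ N := by
    intro i
    induction i with
    | zero => intro a ha; simpa using ha
    | succ i ih =>
      intro a ha
      have := hN _ (ih a ha)
      rwa [show c * (c ^ i * a * (c ^ i)⁻¹) * c⁻¹ = c ^ (i + 1) * a * (c ^ (i + 1))⁻¹ by
        rw [pow_succ']; group] at this
  set S : R := ∑ b : N, ρ b with hS
  have key : ∀ i, 0 < i → i < n → ∑ a : N, ρ (a * c ^ i * (a : K)⁻¹) = S * ρ (c ^ i) := by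
    intro i h1 h2
    let φ : N → N := fun a => ⟨a * (c ^ i * (a : K)⁻¹ * (c ^ i)⁻¹),
      N.mul_mem a.2 (hNi i _ (N.inv_mem a.2))⟩
    have hφ : Function.Injective φ := by
      intro a b hab
      have e : (a : K) * (c ^ i * (a : K)⁻¹ * (c ^ i)⁻¹) = b * (c ^ i * (b : K)⁻¹ * (c ^ i)⁻¹) :=
        congrArg Subtype.val hab
      have e2 := hf i h1 h2 ((b : K)⁻¹ * a) (N.mul_mem (N.inv_mem b.2) a.2) (by
        calc c ^ i * ((b : K)⁻¹ * a)
            = (b : K)⁻¹ * (b * (c ^ i * (b : K)⁻¹ * (c ^ i)⁻¹)) * c ^ i * a := by group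
          _ = (b : K)⁻¹ * (a * (c ^ i * (a : K)⁻¹ * (c ^ i)⁻¹)) * c ^ i * a := by rw [e]
          _ = _ := by group)
      exact Subtype.ext (inv_mul_eq_one.1 e2).symm
    rw [hS, Finset.sum_mul, ← (Finite.injective_iff_bijective.1 hφ).sum_comp
      (fun b : N => ρ b * ρ (c ^ i))]
    refine Finset.sum_congr rfl fun a _ => ?_
    rw [← map_mul]; congr 1; simp only [φ]; group
  have h1 : ∑ i ∈ Finset.range n, ∑ a : N, ρ (a * c ^ i * (a : K)⁻¹) = 0 := by
    rw [Finset.sum_comm]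
    refine Finset.sum_eq_zero fun a _ => ?_
    simp only [map_mul]
    rw [← Finset.sum_mul, ← Finset.mul_sum, h0, mul_zero, zero_mul]
  have h2 : ∑ i ∈ Finset.range n, S * ρ (c ^ i) = 0 := by rw [← Finset.mul_sum, h0, mul_zero]
  obtain ⟨m, rfl⟩ : ∃ m, n = m + 1 := ⟨n - 1, by omega⟩
  rw [Finset.sum_range_succ'] at h1 h2
  rw [Finset.sum_congr rfl fun i hi => key (i + 1) (by omega) (by simpa using hi)] at h1
  have h3 : (Nat.card N : R) = S := by
    have := h1.trans h2.symm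
    simpa [Nat.card_eq_fintype_card] using this
  intro a ha
  rw [h3, hS, Finset.mul_sum, ← (Equiv.mulLeft (⟨a, ha⟩ : N)).bijective.sum_comp
    (fun b : N => ρ b)]
  simp [map_mul]

/-- Automorphisms of a commutative group as additive endomorphisms. -/
def toEnd (M : Type*) [CommGroup M] : MulAut M →* AddMonoid.End (Additive M) where
  toFun φ := MonoidHom.toAdditive φ.toMonoidHom
  map_one' := rfl
  map_mul' _ _ := rfl

/-- If the norm map of `c` on the abelian normal subgroup `M` vanishes and `f c` acts as a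
Frobenius complement on `N`, then the preimage of `N` centralises `M`. -/
theorem frob {K : Type*} [Group K] (M : Subgroup G) [M.Normal] [IsMulCommutative M]
    {f : G →* K} (hf : Function.Surjective f) (hk : ∀ g, f g = 1 → g ∈ centralizer (M : Set G))
    (N : Subgroup K) (c : G) (n : ℕ) (hn : 0 < n) (hN : ∀ a ∈ N, f c * a * (f c)⁻¹ ∈ N)
    (hfr : ∀ i, 0 < i → i < n → ∀ a ∈ N, f c ^ i * a = a * f c ^ i → a = 1)
    (hcop : ∀ m ∈ M, m ^ Nat.card N = 1 → m = 1) (h0 : ∀ m ∈ M, (m * c) ^ n = c ^ n) :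
    ∀ g, f g ∈ N → g ∈ centralizer (M : Set G) := by
  haveI : Finite K := Finite.of_surjective f hf
  let φ : G →* MulAut M := MulAut.conjNormal
  have hφ : f.ker ≤ φ.ker := fun g hg => by
    ext m
    have := (mem_centralizer_iff.1 (hk g hg)) m m.2
    simp [φ, ← this]
  let ψ : K →* MulAut M := f.liftOfRightInverse _ (Function.rightInverse_surjInv hf) ⟨φ, hφ⟩
  have hψ : ∀ g, ψ (f g) = φ g := fun g => f.liftOfRightInverse_comp_apply _ _ _ g
  have h1 := frob_ring ((toEnd M).comp ψ) N (f c) n hn hN hfr (by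
    refine AddMonoidHom.ext fun m' => ?_
    obtain ⟨m, rfl⟩ : ∃ m : M, Additive.ofMul m = m' := ⟨m'.toMul, rfl⟩
    have e := H79.mul_pow_eq_prod_conj M c m n
    rw [h0 m m.2, right_eq_mul, OneMemClass.coe_eq_one] at e
    simp only [MonoidHom.comp_apply, ← map_pow, hψ]
    have : (∑ i ∈ Finset.range n, toEnd M (φ (c ^ i))) (Additive.ofMul m) =
        Additive.ofMul (∏ i ∈ Finset.range n, MulAut.conjNormal (c ^ i) m) := by
      rw [ofMul_prod]
      exact AddMonoidHom.finset_sum_apply _ _ _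
    rw [e] at this
    exact this)
  intro g hg
  rw [mem_centralizer_iff]
  intro m hm
  have e := DFunLike.congr_fun (h1 _ hg) (Additive.ofMul (⟨m, hm⟩ : M))
  simp only [MonoidHom.comp_apply, hψ] at e
  have e2 : (φ g ⟨m, hm⟩) ^ Nat.card N = (⟨m, hm⟩ : M) ^ Nat.card N := by
    rw [← map_pow]; exact e
  have e3 := hcop ((φ g ⟨m, hm⟩ * (⟨m, hm⟩ : M)⁻¹ : M) : G) (Subtype.prop _) (by
    rw [← SubgroupClass.coe_pow, mul_pow, e2, inv_pow, mul_inv_cancel, OneMemClass.coe_one])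
  have e4 : g * m * g⁻¹ * m⁻¹ = 1 := by simpa [φ] using e3
  calc m * g = (g * m * g⁻¹ * m⁻¹) * m * g := by rw [e4, one_mul]
    _ = g * m := by group

/-- The norm map of an element without fixed points vanishes. -/
theorem norm_of_fpf (M : Subgroup G) [M.Normal] [IsMulCommutative M] {c : G} {n : ℕ}
    (hc : c ^ n ∈ centralizer (M : Set G)) (hf : ∀ m ∈ M, m * c = c * m → m = 1) :
    ∀ m ∈ M, (m * c) ^ n = c ^ n := by
  intro m hm
  have e := H79.mul_pow_eq_prod_conj M c ⟨m, hm⟩ n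
  set w : M := ∏ i ∈ Finset.range n, MulAut.conjNormal (c ^ i) (⟨m, hm⟩ : M)
  have e1 : (m * c) ^ n = w * c ^ n := e
  have h1 : (w : G) * c = c * w := by
    have c1 : (m * c) * (m * c) ^ n = (m * c) ^ n * (m * c) := (Commute.self_pow _ _).eq
    have c2 : c ^ n * m = m * c ^ n := ((mem_centralizer_iff.1 hc) m hm).symm
    have c3 : (w : G) * m = m * w := congrArg Subtype.val (mul_comm w ⟨m, hm⟩)
    rw [e1] at c1
    have : m * (c * w) * c ^ n = m * (w * c) * c ^ n := by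
      calc _ = m * c * (w * c ^ n) := by group
        _ = w * (c ^ n * m) * c := by rw [c1]; group
        _ = (w * m) * (c ^ n * c) := by rw [c2]; group
        _ = _ := by rw [c3, (Commute.self_pow c n).eq.symm]; group
    exact (mul_left_cancel (mul_right_cancel this)).symm
  rw [e1, hf w w.2 h1, one_mul]

end H8.Six
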