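import Mathlib
import Cfsg.Agent.Base
import Cfsg.Agent.Lib.Six8.Basic

/-!
A dihedral group of order ten acting on a `2`-group in a group with element orders at most six.
-/

set_option autoImplicit false

namespace H8.Six

open Subgroup
open scoped IsMulCommutative

theorem free_add {V : Type*} [AddCommGroup V] (U T : V →+ V) (h2 : ∀ x : V, x + x = 0)
    (h5 : ∀ x, U (U (U (U (U x)))) = x) (hT : ∀ x, T (T x) = x)
    (hTU : ∀ x, U (T (U x)) = T x) (hf : ∀ x, U x = x → x = 0) :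
    (∀ a, T a = a → ∃ v, a = T v + v) ∧ ∀ v, ∃ a b, T a = a ∧ T b = b ∧ v = a + U b := by
  have hN : ∀ x, x + U x + U (U x) + U (U (U x)) + U (U (U (U x))) = 0 := fun x => hf _ (by
    simp only [map_add, h5]; abel)
  have e1 : ∀ x, T (U x) = U (U (U (U (T x)))) := fun x => by rw [← hTU x, h5]
  have e2 : ∀ x, T (U (U x)) = U (U (U (T x))) := fun x => by rw [e1, e1, h5]
  have e3 : ∀ x, T (U (U (U x))) = U (U (T x)) := fun x => by rw [e1, e2, h5]
  have e4 : ∀ x, T (U (U (U (U x)))) = U (T x) := fun x => by rw [e1, e3, h5]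
  constructor
  · intro a ha
    refine ⟨U (U (U a)) + U (U (U (U a))), ?_⟩
    rw [map_add, e3, e4, ha]
    linear_combination (norm := abel1) h2 a - hN a
  · intro v
    have hw : T (v + T v) = v + T v := by rw [map_add, hT, add_comm]
    set w := v + T v with hw'
    refine ⟨v + U (U (U w) + U (U (U w))), U (U w) + U (U (U w)), ?_, ?_, ?_⟩
    · rw [map_add, map_add U, map_add T, e3, e4, hw]
      linear_combination (norm := abel1) hN w - hw' - h2 v - h2 (U (U (U w))) - h2 (U (U (U (U w))))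
    · rw [map_add, e2, e3, hw, add_comm]
    · rw [add_assoc, h2, add_zero]

variable {G : Type*} [Group G]

/-- Conjugation on a subgroup. -/
def cj (Q : Subgroup G) (g : G) (hg : ∀ a ∈ Q, g * a * g⁻¹ ∈ Q) : Q →* Q where
  toFun a := ⟨g * a * g⁻¹, hg a a.2⟩
  map_one' := Subtype.ext (by simp)
  map_mul' a b := Subtype.ext (by simp [mul_assoc])

theorem comm_of_sq {Q : Subgroup G} (h : ∀ a ∈ Q, a ^ 2 = 1) {a b : G} (ha : a ∈ Q) (hb : b ∈ Q) :
    a * b = b * a := by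
  have inv : ∀ c ∈ Q, c⁻¹ = c := fun c hc => by
    rw [inv_eq_iff_mul_eq_one, ← sq, h c hc]
  rw [← inv _ (mul_mem ha hb), mul_inv_rev, inv a ha, inv b hb]

theorem isMulComm_of_sq {Q : Subgroup G} (h : ∀ a ∈ Q, a ^ 2 = 1) : IsMulCommutative Q :=
  ⟨⟨fun a b => Subtype.ext (comm_of_sq h a.2 b.2)⟩⟩

variable [Finite G]

theorem Ok.free (h : Ok G) {Q : Subgroup G} (hQ : ∀ a ∈ Q, a ^ 2 = 1) {u t : G}
    (hu : ∀ a ∈ Q, u * a * u⁻¹ ∈ Q) (ht : ∀ a ∈ Q, t * a * t⁻¹ ∈ Q) (hu5 : u ^ 5 = 1) (hu1 : u ≠ 1)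
    (ht2 : ∀ a ∈ Q, t * t * a = a * (t * t))
    (htu : ∀ a ∈ Q, t⁻¹ * u * t * u * a = a * (t⁻¹ * u * t * u)) :
    (∀ a ∈ Q, t * a * t⁻¹ = a → ∃ v ∈ Q, a = t * v * t⁻¹ * v) ∧
      ∀ v ∈ Q, ∃ a ∈ Q, ∃ b ∈ Q, t * a * t⁻¹ = a ∧ t * b * t⁻¹ = b ∧ v = a * (u * b * u⁻¹) := by
  haveI := isMulComm_of_sq hQ
  obtain ⟨h1, h2⟩ := free_add (V := Additive Q) (MonoidHom.toAdditive (cj Q u hu))
    (MonoidHom.toAdditive (cj Q t ht))
    (fun x => Subtype.ext (by
      show (x.toMul : G) * x.toMul = 1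
      rw [← sq]; exact hQ _ x.toMul.2) : ∀ x : Additive Q, x + x = 0)
    (fun x => Subtype.ext (by
      show u * (u * (u * (u * (u * (x.toMul : G) * u⁻¹) * u⁻¹) * u⁻¹) * u⁻¹) * u⁻¹ = x.toMul
      calc _ = u ^ 5 * (x.toMul : G) * (u ^ 5)⁻¹ := by simp only [pow_succ, pow_zero]; group
        _ = _ := by rw [hu5]; simp))
    (fun x => Subtype.ext (by
      show t * (t * (x.toMul : G) * t⁻¹) * t⁻¹ = x.toMul
      calc _ = t * t * (x.toMul : G) * (t * t)⁻¹ := by group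
        _ = _ := by rw [ht2 _ x.toMul.2]; group))
    (fun x => Subtype.ext (by
      show u * (t * (u * (x.toMul : G) * u⁻¹) * t⁻¹) * u⁻¹ = t * (x.toMul : G) * t⁻¹
      calc _ = t * (t⁻¹ * u * t * u * (x.toMul : G)) * (t⁻¹ * u * t * u)⁻¹ * t⁻¹ := by group
        _ = _ := by rw [htu _ x.toMul.2]; group))
    (fun x hx => Subtype.ext (by
      have e : u * (x.toMul : G) * u⁻¹ = x.toMul := congrArg Subtype.val hx
      exact h.eq_one_of_comm5 (g := x.toMul) hu5 hu1 (mul_inv_eq_iff_eq_mul.1 e).symm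
        (hQ _ x.toMul.2) (by norm_num)))
  constructor
  · intro a ha e
    obtain ⟨v, hv⟩ := h1 (Additive.ofMul ⟨a, ha⟩) (Subtype.ext e)
    exact ⟨v.toMul, v.toMul.2, congrArg Subtype.val hv⟩
  · intro v hv
    obtain ⟨a, b, e1, e2, e3⟩ := h2 (Additive.ofMul ⟨v, hv⟩)
    exact ⟨a.toMul, a.toMul.2, b.toMul, b.toMul.2, congrArg Subtype.val e1, congrArg Subtype.val e2,
      congrArg Subtype.val e3⟩

universe v

theorem d10_aux (n : ℕ) : ∀ (G : Type v) [Group G] [Finite G], Ok G → ∀ (Q : Subgroup G) [Q.Normal],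
    Nat.card Q = n → IsPGroup 2 Q → ∀ u t : G, u ^ 5 = 1 → u ≠ 1 → t * t = 1 →
    u * t * u = t → ∀ a ∈ Q, a ^ 2 = 1 := by
  induction n using Nat.strong_induction_on with
  | _ n ih =>
  intro G _ _ h Q _ hn hQ u t hu5 hu1 ht htu
  haveI := Fact.mk Nat.prime_two
  by_cases hb : Q = ⊥
  · intro a ha; rw [hb, mem_bot] at ha; simp [ha]
  have hZ : Q ⊓ centralizer (Q : Set G) ≠ ⊥ := by
    haveI := (nontrivial_iff_ne_bot Q).2 hb
    haveI := hQ.center_nontrivial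
    obtain ⟨⟨z, hz⟩, hz1⟩ := exists_ne (1 : center Q)
    intro e
    have : (z : G) ∈ Q ⊓ centralizer (Q : Set G) :=
      ⟨z.2, mem_centralizer_iff.2 fun g hg => congrArg Subtype.val (mem_center_iff.1 hz ⟨g, hg⟩)⟩
    rw [e, mem_bot] at this
    exact hz1 (Subtype.ext (Subtype.ext this))
  obtain ⟨M, hM, hMQ, -, p, hp, hpM, hMp, -⟩ := H3.exists_normal_elementary_le _ hZ
    (H1.isSolvable_of_isPGroup (hQ.to_le inf_le_left))
  haveI := hM.1
  have hMQ' : M ≤ Q := hMQ.trans inf_le_left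
  have hc : ∀ m ∈ M, ∀ a ∈ Q, a * m = m * a := fun m hm a ha =>
    mem_centralizer_iff.1 (hMQ hm).2 a ha
  obtain rfl : p = 2 := by
    obtain ⟨k, hk⟩ := IsPGroup.iff_card.1 (hQ.to_le hMQ')
    exact (Nat.prime_dvd_prime_iff_eq hp Nat.prime_two).1 (hp.dvd_of_dvd_pow (hk ▸ hpM))
  let f := QuotientGroup.mk' M
  have hf : Function.Surjective f := QuotientGroup.mk'_surjective M
  have hfM : ∀ g, f g = 1 ↔ g ∈ M := fun g => QuotientGroup.eq_one_iff g
  haveI : (Q.map f).Normal := Normal.map inferInstance f hf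
  have hu1' : f u ≠ 1 := fun e =>
    hu1 (eq_one_of_pow hu5 (hMp u ((hfM u).1 e)) (by norm_num))
  have hlt : Nat.card (Q.map f) < n := by
    have h1 := H3.card_quotient_lt (M.subgroupOf Q) (by
      rw [Ne, subgroupOf_eq_bot, disjoint_iff, inf_eq_left.2 hMQ']; exact hM.2)
    rw [← hn, ← relIndex_ker, QuotientGroup.ker_mk']
    exact h1
  have hsq := ih _ hlt (G ⧸ M) (h.quot M) (Q.map f) rfl (hQ.map f) (f u) (f t)
    (by rw [← map_pow, hu5, map_one]) hu1' (by rw [← map_mul, ht, map_one])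
    (by rw [← map_mul, ← map_mul, htu])
  obtain ⟨F1, F2⟩ := (h.quot M).free hsq (u := f u) (t := f t)
    (fun a ha => Normal.conj_mem inferInstance a ha _)
    (fun a ha => Normal.conj_mem inferInstance a ha _) (by rw [← map_pow, hu5, map_one]) hu1'
    (fun a _ => by rw [← map_mul, ht, map_one, one_mul, mul_one])
    (fun a _ => by
      rw [show (f t)⁻¹ * f u * f t * f u = f (t⁻¹ * (u * t * u)) by simp [mul_assoc], htu]; simp)
  have cQ : ∀ g : G, ∀ a ∈ Q, g * a * g⁻¹ ∈ Q := fun g a ha => Normal.conj_mem inferInstance a ha g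
  have cM : ∀ g : G, ∀ a ∈ M, g * a * g⁻¹ ∈ M := fun g a ha => Normal.conj_mem inferInstance a ha g
  have eqM : ∀ a b : G, f a = f b → ∃ m ∈ M, a = b * m := fun a b e =>
    ⟨b⁻¹ * a, (hfM _).1 (by simp [e]), by simp⟩
  have ti : t⁻¹ = t := inv_eq_of_mul_eq_one_right ht
  -- elements fixed modulo `M` are involutions
  have sqA : ∀ a ∈ Q, f (t * a * t⁻¹) = f a → a ^ 2 = 1 := by
    intro a ha e
    obtain ⟨_, ⟨v, hv, rfl⟩, e2⟩ := F1 (f a) (mem_map_of_mem f ha) (by simpa using e)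
    obtain ⟨m, hm, e3⟩ := eqM a (t * v * t⁻¹ * v) (by simpa using e2)
    have hw : t * v * t⁻¹ * v ∈ Q := mul_mem (cQ t v hv) hv
    obtain ⟨k, hk⟩ := exists_pow_of_mem hQ hw
    have e4 : (t * v) ^ 2 = t * v * t⁻¹ * v := by rw [ti, sq]; group
    have e5 : (t * v) ^ 4 = 1 := h.pow4 (k := k + 1) (by rw [pow_succ', pow_mul, e4, hk])
    rw [show 4 = 2 * 2 from rfl, pow_mul, e4] at e5
    rw [e3, (show Commute _ _ from hc m hm _ hw).mul_pow, e5, hMp m hm, one_mul]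
  have cm : ∀ a ∈ Q, ∀ b ∈ Q, f (a * b) = f (b * a) := fun a ha b hb => by
    rw [map_mul, map_mul]; exact comm_of_sq hsq (mem_map_of_mem f ha) (mem_map_of_mem f hb)
  have comA : ∀ a ∈ Q, f (t * a * t⁻¹) = f a → ∀ b ∈ Q, f (t * b * t⁻¹) = f b →
      a * b = b * a := by
    intro a ha ea b hb eb
    have e1 := sqA _ (mul_mem ha hb) (by
      rw [← conj_mul, map_mul, ea, eb, map_mul])
    have e2 := sqA a ha ea
    have e3 := sqA b hb eb
    rw [sq] at e1 e2 e3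
    calc a * b = a * (a * b * (a * b)) * b := by rw [e1]; simp
      _ = (a * a) * (b * a) * (b * b) := by group
      _ = _ := by rw [e2, e3]; simp
  have tu : ∀ a : G, t * (u * a * u⁻¹) * t⁻¹ = u⁻¹ * (t * a * t⁻¹) * u := fun a => by
    calc _ = u⁻¹ * (u * t * u) * a * (u * t * u)⁻¹ * u := by group
      _ = _ := by rw [htu]; group
  have tu' : ∀ a : G, t * (u⁻¹ * a * u) * t⁻¹ = u * (t * a * t⁻¹) * u⁻¹ := fun a => by
    calc _ = (u * t * u) * (u⁻¹ * a * u) * (u * t * u)⁻¹ := by rw [htu]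
      _ = _ := by group
  have cQ' : ∀ a ∈ Q, u⁻¹ * a * u ∈ Q := fun a ha => by simpa using cQ u⁻¹ a ha
  have om : ∀ a ∈ Q, f (t * a * t⁻¹) = f a →
      f (t * (u * a * u⁻¹ * (u⁻¹ * a * u)) * t⁻¹) = f (u * a * u⁻¹ * (u⁻¹ * a * u)) := by
    intro a ha ea
    rw [← conj_mul, tu, tu', cm _ (cQ u a ha) _ (cQ' a ha)]
    simp only [map_mul] at ea ⊢
    rw [ea]
  have cmM : ∀ a ∈ Q, ∀ b ∈ Q, ∃ m ∈ M, a * b = b * a * m := fun a ha b hb =>
    eqM _ _ (cm a ha b hb)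
  have key : ∀ a ∈ Q, f (t * a * t⁻¹) = f a → ∀ b ∈ Q, f (t * b * t⁻¹) = f b →
      a * (u * b * u⁻¹) = u * b * u⁻¹ * a := by
    intro a ha ea b hb eb
    obtain ⟨m1, hm1, e1⟩ := cmM a ha _ (cQ u b hb)
    obtain ⟨m2, hm2, e2⟩ := cmM a ha _ (cQ' b hb)
    have e3 := comA a ha ea _ (mul_mem (cQ u b hb) (cQ' b hb)) (om b hb eb)
    have e4 := comA _ (mul_mem (cQ u a ha) (cQ' a ha)) (om a ha ea) b hb eb
    have s1 : m1 * m2 = 1 := by
      have : u * b * u⁻¹ * (u⁻¹ * b * u) * a * (m1 * m2) = u * b * u⁻¹ * (u⁻¹ * b * u) * a * 1 := by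
        calc _ = u * b * u⁻¹ * (u⁻¹ * b * u * a * m2) * m1 := by
              rw [hc m2 hm2 m1 (hMQ' hm1)]; group
          _ = u * b * u⁻¹ * a * (u⁻¹ * b * u * m1) := by rw [← e2]; group
          _ = (u * b * u⁻¹ * a * m1) * (u⁻¹ * b * u) := by rw [hc m1 hm1 _ (cQ' b hb)]; group
          _ = _ := by rw [← e1, mul_assoc a, e3, mul_one]
      exact mul_left_cancel this
    have f1 : u⁻¹ * a * u * b = b * (u⁻¹ * a * u) * (u⁻¹ * m1 * u) := by
      calc _ = u⁻¹ * (a * (u * b * u⁻¹)) * u := by group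
        _ = _ := by rw [e1]; group
    have f2 : u * a * u⁻¹ * b = b * (u * a * u⁻¹) * (u * m2 * u⁻¹) := by
      calc _ = u * (a * (u⁻¹ * b * u)) * u⁻¹ := by group
        _ = _ := by rw [e2]; group
    have s2 : u * m2 * u⁻¹ * (u⁻¹ * m1 * u) = 1 := by
      have : b * (u * a * u⁻¹ * (u⁻¹ * a * u)) * (u * m2 * u⁻¹ * (u⁻¹ * m1 * u)) =
          b * (u * a * u⁻¹ * (u⁻¹ * a * u)) * 1 := by
        calc _ = b * (u * a * u⁻¹) * (u⁻¹ * a * u * (u * m2 * u⁻¹)) * (u⁻¹ * m1 * u) := by group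
          _ = (b * (u * a * u⁻¹) * (u * m2 * u⁻¹)) * (u⁻¹ * a * u) * (u⁻¹ * m1 * u) := by
              rw [hc _ (cM u m2 hm2) _ (cQ' a ha)]; group
          _ = u * a * u⁻¹ * (b * (u⁻¹ * a * u) * (u⁻¹ * m1 * u)) := by rw [← f2]; group
          _ = _ := by rw [← f1, ← mul_assoc, e4, mul_one]
      exact mul_left_cancel this
    have i1 : m1⁻¹ = m1 := by rw [inv_eq_iff_mul_eq_one, ← sq, hMp m1 hm1]
    have s3 : m2 = m1 := by rw [← i1]; exact (eq_inv_of_mul_eq_one_right s1)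
    rw [s3] at s2
    have s4 : m1 * u ^ 2 = u ^ 2 * m1 := by
      calc m1 * u ^ 2 = m1 * u * (u * m1 * u⁻¹ * (u⁻¹ * m1 * u))⁻¹ * u := by rw [s2, sq]; group
        _ = m1 * m1⁻¹ * (u * u) * m1⁻¹ := by simp [mul_assoc]
        _ = _ := by rw [mul_inv_cancel, i1, one_mul, sq]
    have s5 := h.eq_one_of_comm5 (u := u ^ 2) (by rw [← pow_mul, mul_comm, pow_mul, hu5, one_pow])
      (fun e => hu1 (eq_one_of_pow e hu5 (by norm_num))) s4 (hMp m1 hm1) (by norm_num)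
    rw [e1, s5, mul_one]
  intro v hv
  obtain ⟨_, ⟨a, ha, rfl⟩, _, ⟨b, hb, rfl⟩, e1, e2, e3⟩ := F2 (f v) (mem_map_of_mem f hv)
  obtain ⟨m, hm, rfl⟩ := eqM v (a * (u * b * u⁻¹)) (by simpa using e3)
  have ea : f (t * a * t⁻¹) = f a := by simpa using e1
  have eb : f (t * b * t⁻¹) = f b := by simpa using e2
  rw [(show Commute _ _ from hc m hm _ (mul_mem ha (cQ u b hb))).mul_pow, hMp m hm,
    (show Commute _ _ from key a ha ea b hb eb).mul_pow, sqA a ha ea, conj_pow, sqA b hb eb]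
  simp

/-- A normal `2`-subgroup is elementary abelian as soon as there is a dihedral subgroup of order
ten. -/
theorem Ok.d10 (h : Ok G) {Q : Subgroup G} [Q.Normal] (hQ : IsPGroup 2 Q) {u t : G}
    (hu5 : u ^ 5 = 1) (hu1 : u ≠ 1) (ht : t * t = 1) (htu : u * t * u = t) : ∀ a ∈ Q, a ^ 2 = 1 :=
  d10_aux _ G h Q rfl hQ u t hu5 hu1 ht htu

end H8.Six
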