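import Mathlib
import Cfsg.Agent.Base
import Cfsg.Agent.Lib.Six8.D10
import Cfsg.Agent.Lib.Six8.A5
import Cfsg.Agent.Lib.LocStruct.SylowIn

/-!
An elementary abelian `2`-subgroup `Q` with `N(Q)/Q ≅ A₅` in a group with element orders at most six.
-/

set_option autoImplicit false

namespace H8.Six

open Subgroup H69

variable {G : Type*} [Group G]

/-- A dihedral subgroup of order ten in an extension of a `2`-group by `A₅`. -/
theorem Ok.exists_d10 [Finite G] (h : Ok G) {f : G →* A5} (hf : Function.Surjective f)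
    (hQ : IsPGroup 2 f.ker) : ∃ u t : G, u ^ 5 = 1 ∧ u ≠ 1 ∧ t * t = 1 ∧ u * t * u = t ∧ f t ≠ 1 := by
  obtain ⟨σ, h1, h2⟩ := a5_exists_inv
  obtain ⟨τ, h3, h4, h5⟩ := a5_d10 σ h1 h2
  obtain ⟨u, rfl, hu⟩ := h.lift5 hf h3
  obtain ⟨s, rfl⟩ := hf σ
  have hu1 : u ≠ 1 := fun e => h4 (by rw [e, map_one])
  let φ : f.ker → f.ker := fun q => ⟨q * u⁻¹ * (q : G)⁻¹ * u, by
    have : f q = 1 := q.2
    simp [MonoidHom.mem_ker, this]⟩
  have hφ : Function.Injective φ := fun a b e => by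
    have e1 : (a : G) * u⁻¹ * (a : G)⁻¹ * u = b * u⁻¹ * (b : G)⁻¹ * u := congrArg Subtype.val e
    have e2 : (b : G)⁻¹ * a * u = u * ((b : G)⁻¹ * a) := by
      calc _ = u * ((b : G)⁻¹ * (b * u⁻¹ * (b : G)⁻¹ * u) * u⁻¹) * a * u := by group
        _ = _ := by rw [← e1]; group
    have := h.eq_one_of_comm5 hu hu1 e2 (h.pow4_mem hQ (mul_mem (inv_mem b.2) a.2)) (by norm_num)
    exact Subtype.ext (inv_mul_eq_one.1 this).symm
  obtain ⟨q, hq⟩ := Finite.injective_iff_surjective.1 hφ ⟨s⁻¹ * u * s * u, by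
    rw [MonoidHom.mem_ker]
    calc _ = (f s)⁻¹ * (f u * f s * f u) := by simp [mul_assoc]
      _ = 1 := by rw [h5, inv_mul_cancel]⟩
  have hq' : (q : G) * u⁻¹ * (q : G)⁻¹ * u = s⁻¹ * u * s * u := congrArg Subtype.val hq
  have hfq : f q = 1 := q.2
  have e : u * (s * q) * u = s * q := by
    calc _ = s * (s⁻¹ * u * s * u) * u⁻¹ * q * u := by group
      _ = _ := by rw [← hq']; group
  refine ⟨u, s * q, hu, hu1, ?_, e, by simpa [hfq] using h2⟩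
  refine h.eq_one_of_comm5 hu hu1 ?_ (h.pow4_mem hQ (by simp [MonoidHom.mem_ker, hfq, h1]))
    (by norm_num)
  calc _ = (u * (s * q) * u) * (s * q) * u := by rw [e]
    _ = u * (s * q) * (u * (s * q) * u) := by group
    _ = _ := by rw [e, mul_assoc]

/-- The configuration: `Q` elementary abelian, `N(Q)/Q ≅ A₅`. -/
structure Cfg (Q : Subgroup G) where
  sq : ∀ a ∈ Q, a ^ 2 = 1
  ne : Q ≠ ⊥
  f : 𝐍(Q) →* A5
  surj : Function.Surjective f
  ker : ∀ h : 𝐍(Q), f h = 1 ↔ (h : G) ∈ Q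

/-- Elements inducing an involution on `Q`. -/
structure Inv (Q : Subgroup G) (t : G) : Prop where
  mem : t ∈ 𝐍(Q)
  out : t ∉ Q
  sq : t * t ∈ Q

/-- The centraliser in `Q` of an element. -/
abbrev CQ (Q : Subgroup G) (t : G) : Subgroup G := Q ⊓ centralizer {t}

theorem mem_CQ {Q : Subgroup G} {t a : G} : a ∈ CQ Q t ↔ a ∈ Q ∧ t * a = a * t := by
  simp [CQ, mem_centralizer_singleton_iff, eq_comm]

namespace Cfg

variable {Q : Subgroup G} (c : Cfg Q)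

/-- Transport of the configuration by conjugation. -/
def cj (g : G) : Cfg (Q ^ᶜ g) where
  sq a ha := by
    obtain ⟨b, hb, rfl⟩ := mem_cj'.1 ha
    rw [conj_pow, c.sq b hb]; simp
  ne := fun e => c.ne (cj_eq_bot_iff.1 e)
  f := c.f.comp
    { toFun := fun x => ⟨g⁻¹ * x * g, mem_cj.1 ((cj_normalizer Q g).ge x.2)⟩
      map_one' := Subtype.ext (by simp)
      map_mul' := fun a b => Subtype.ext (by
        show g⁻¹ * (a * b) * g = g⁻¹ * a * g * (g⁻¹ * b * g)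
        group) }
  surj σ := by
    obtain ⟨x, rfl⟩ := c.surj σ
    refine ⟨⟨g * x * g⁻¹, (cj_normalizer Q g).le (cj_mem g x.2)⟩, congrArg c.f (Subtype.ext ?_)⟩
    show g⁻¹ * (g * x * g⁻¹) * g = x
    group
  ker x := (c.ker _).trans mem_cj.symm

include c

theorem comm {a b : G} (ha : a ∈ Q) (hb : b ∈ Q) : a * b = b * a := comm_of_sq c.sq ha hb

theorem mul_self {a : G} (ha : a ∈ Q) : a * a = 1 := by rw [← pow_two, c.sq a ha]

theorem inv_eq {a : G} (ha : a ∈ Q) : a⁻¹ = a := inv_eq_of_mul_eq_one_right (c.mul_self ha)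

theorem pg : IsPGroup 2 Q := isPGroup_of_pow (k := 1) c.sq

theorem pg_ker : IsPGroup 2 c.f.ker :=
  isPGroup_of_pow (k := 1) fun g hg => Subtype.ext (c.sq _ ((c.ker g).1 hg))

theorem two {t : G} (ht : t ∈ 𝐍(Q)) (h4 : t ^ 4 ∈ Q) : t * t ∈ Q :=
  (c.ker (⟨t, ht⟩ * ⟨t, ht⟩)).1 (by
    rw [map_mul]; exact a5_four _ (by rw [← map_pow]; exact (c.ker _).2 h4))

theorem f_ne {t : G} (ht : Inv Q t) : c.f ⟨t, ht.mem⟩ ≠ 1 := fun e => ht.out ((c.ker _).1 e)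

theorem f_sq {t : G} (ht : t ∈ 𝐍(Q)) (h : t * t ∈ Q) : c.f ⟨t, ht⟩ * c.f ⟨t, ht⟩ = 1 := by
  rw [← map_mul]; exact (c.ker _).2 h

theorem v4 {r s : G} (hr : Inv Q r) (hs : Inv Q s) (hrs : Inv Q (r * s)) {p : G} (hp : p ∈ 𝐍(Q))
    (h1 : p * p ∈ Q) (h2 : p * r * (p * r) ∈ Q) :
    p ∈ Q ∨ p * r ∈ Q ∨ p * s ∈ Q ∨ p * (r * s) ∈ Q := by
  have := a5_v4 _ (c.f_sq hr.mem hr.sq) (c.f_ne hr) _ (c.f_sq hs.mem hs.sq) (c.f_ne hs)
    (by rw [← map_mul]; exact c.f_ne hrs) (by rw [← map_mul]; exact c.f_sq hrs.mem hrs.sq)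
    _ (c.f_sq hp h1) (by rw [← map_mul]; exact c.f_sq (mul_mem hp hr.mem) h2)
  simp only [← map_mul, c.ker] at this
  exact this

theorem conjI {r s : G} (hr : Inv Q r) (hs : Inv Q s) : ∃ g ∈ 𝐍(Q), g * r * g⁻¹ * s⁻¹ ∈ Q := by
  obtain ⟨η, e⟩ := a5_conj _ (c.f_sq hr.mem hr.sq) (c.f_ne hr) _ (c.f_sq hs.mem hs.sq) (c.f_ne hs)
  obtain ⟨g, rfl⟩ := c.surj η
  refine ⟨g, g.2, (c.ker (g * ⟨r, hr.mem⟩ * g⁻¹ * ⟨s, hs.mem⟩⁻¹)).1 ?_⟩
  simp only [map_mul, map_inv, e, mul_inv_cancel]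

variable [Finite G]

theorem rel {R : Subgroup G} (hR : IsPGroup 2 R) (hRH : R ≤ 𝐍(Q)) :
    Nat.card R ≤ 4 * Nat.card (Q ⊓ R : Subgroup G) := by
  haveI := Fact.mk Nat.prime_two
  have h1 := H1.card_map_mul_card_inf_ker c.f (R.subgroupOf 𝐍(Q))
  have h2 : c.f.ker ⊓ R.subgroupOf 𝐍(Q) = (Q ⊓ R).subgroupOf 𝐍(Q) := by
    ext x; simp [c.ker, mem_subgroupOf]
  rw [h2, card_subgroupOf hRH, card_subgroupOf (inf_le_right.trans hRH)] at h1
  obtain ⟨k, hk⟩ := IsPGroup.iff_card.1 ((isPGroup_subgroupOf hR 𝐍(Q)).map c.f)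
  have h3 := card_subgroup_dvd_card ((R.subgroupOf 𝐍(Q)).map c.f)
  rw [card_A5, hk] at h3
  have h4 : k ≤ 2 := by
    by_contra hh
    have := (pow_dvd_pow 2 (show 3 ≤ k by omega)).trans h3
    norm_num at this
  rw [← h1, hk]
  exact Nat.mul_le_mul_right _ ((Nat.pow_le_pow_right two_pos h4).trans (by norm_num))

variable (h : Ok G)
include h

omit c in
theorem _root_.H8.Six.Ok.no5 (c : Cfg Q) {s w : G} (h5 : s ^ 5 ∈ Q) (hs : s ∉ Q) (hw : w ∈ Q)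
    (hc : s * w = w * s) : w = 1 := by
  refine h.eq_one_of_comm5 (u := s ^ 2) (by rw [← pow_mul, mul_comm, pow_mul, c.sq _ h5])
    (fun e => hs ?_) ((show Commute w s from hc.symm).pow_right 2).eq (c.sq w hw) (by norm_num)
  rwa [show 5 = 2 * 2 + 1 from rfl, pow_succ, pow_mul, e, one_pow, one_mul] at h5

theorem exu {t : G} (ht : Inv Q t) :
    ∃ u ∈ 𝐍(Q), u ^ 5 = 1 ∧ u ≠ 1 ∧ t⁻¹ * u * t * u ∈ Q := by
  obtain ⟨τ, h1, h2, h3⟩ := a5_d10 _ (c.f_sq ht.mem ht.sq) (c.f_ne ht)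
  obtain ⟨u, rfl, hu⟩ := (h.sub _).lift5 c.surj h1
  refine ⟨u, u.2, by simpa using congrArg Subtype.val hu,
    fun e => h2 (by rw [show u = 1 from Subtype.ext e, map_one]),
    (c.ker (⟨t, ht.mem⟩⁻¹ * u * ⟨t, ht.mem⟩ * u)).1 ?_⟩
  simp only [map_mul, map_inv]
  rw [mul_assoc, mul_assoc, ← mul_assoc (c.f u), h3, inv_mul_cancel]

theorem exists_inv : ∃ t, Inv Q t ∧ t * t = 1 := by
  obtain ⟨u, t, -, -, h1, -, h2⟩ := (h.sub _).exists_d10 c.surj c.pg_ker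
  have h3 : (t : G) * t = 1 := congrArg Subtype.val h1
  exact ⟨t, ⟨t.2, fun e => h2 ((c.ker t).2 e), h3 ▸ one_mem _⟩, h3⟩

theorem free {t : G} (ht : Inv Q t) {a : G} (ha : a ∈ CQ Q t) :
    ∃ v ∈ Q, a = t * v * t⁻¹ * v := by
  obtain ⟨u, hu, h1, h2, h3⟩ := c.exu h ht
  rw [mem_CQ] at ha
  exact (h.free c.sq (fun a => conj_mem_of_mem_normalizer hu)
    (fun a => conj_mem_of_mem_normalizer ht.mem) h1 h2 (fun a ha => c.comm ht.sq ha)
    (fun a ha => c.comm h3 ha)).1 a ha.1 (by rw [ha.2]; simp)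

omit h [Finite G] in
theorem del_mem {t : G} (ht : Inv Q t) {v : G} (hv : v ∈ Q) : t * v * t⁻¹ * v ∈ CQ Q t := by
  have h1 := conj_mem_of_mem_normalizer ht.mem hv
  rw [mem_CQ]
  refine ⟨mul_mem h1 hv, ?_⟩
  calc _ = (t * t * v) * (t * t)⁻¹ * (t * v * t⁻¹) * t := by group
    _ = v * (t * v * t⁻¹) * t := by rw [c.comm ht.sq hv]; group
    _ = _ := by rw [c.comm hv h1]

theorem cent {g : G} (hg : g ∈ 𝐂(Q)) : g ∈ Q := by
  let K : Subgroup 𝐍(Q) := (𝐂(Q)).subgroupOf 𝐍(Q)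
  haveI : K.Normal := normal_subgroupOf_iff_le_normalizer (centralizer_le_normalizer _) |>.2
    (normalizer_le_normalizer_centralizer Q)
  haveI : IsSimpleGroup A5 := alternatingGroup.isSimpleGroup_five
  rcases (Normal.map inferInstance c.f c.surj : (K.map c.f).Normal).eq_bot_or_eq_top with e | e
  · have : c.f ⟨g, centralizer_le_normalizer _ hg⟩ ∈ K.map c.f := mem_map_of_mem _ hg
    rw [e, mem_bot] at this
    exact (c.ker _).1 this
  · obtain ⟨σ, h1, h2⟩ := a5_exists_inv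
    obtain ⟨τ, h3, h4, -⟩ := a5_d10 σ h1 h2
    obtain ⟨s, hs, rfl⟩ : τ ∈ K.map c.f := e ▸ mem_top τ
    obtain ⟨⟨w, hw⟩, hw1⟩ := ne_bot_iff_exists_ne_one.1 c.ne
    refine absurd (Subtype.ext (h.no5 c (s := s) ((c.ker (s ^ 5)).1 (by rw [map_pow, h3]))
      (fun e => h4 ((c.ker s).2 e)) hw ?_)) hw1
    exact (mem_centralizer_iff_commute.1 hs w hw).symm

/-- The commutator map with `t` on `Q`. -/
def del {t : G} (ht : t ∈ 𝐍(Q)) : Q →* Q where
  toFun v := ⟨t * v * t⁻¹ * v, mul_mem (conj_mem_of_mem_normalizer ht v.2) v.2⟩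
  map_one' := Subtype.ext (by simp)
  map_mul' a b := Subtype.ext (by
    show t * (a * b) * t⁻¹ * (a * b) = t * a * t⁻¹ * a * (t * b * t⁻¹ * b)
    calc _ = t * a * t⁻¹ * (t * b * t⁻¹ * a) * b := by group
      _ = _ := by rw [c.comm (conj_mem_of_mem_normalizer ht b.2) a.2]; group)

omit h [Finite G] in
theorem ker_del {t : G} (ht : t ∈ 𝐍(Q)) : (c.del ht).ker = (CQ Q t).subgroupOf Q := by
  ext v
  rw [MonoidHom.mem_ker, mem_subgroupOf, mem_CQ, Subtype.ext_iff]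
  show t * v * t⁻¹ * v = 1 ↔ _
  rw [mul_eq_one_iff_eq_inv, c.inv_eq v.2, mul_inv_eq_iff_eq_mul]
  simp

theorem range_del {t : G} (ht : Inv Q t) : (c.del ht.mem).range = (CQ Q t).subgroupOf Q := by
  ext a
  rw [mem_subgroupOf]
  constructor
  · rintro ⟨v, rfl⟩
    exact c.del_mem ht v.2
  · intro ha
    obtain ⟨v, hv, e⟩ := c.free h ht ha
    exact ⟨⟨v, hv⟩, Subtype.ext e.symm⟩

/-- Preimages under the commutator map. -/
theorem card_K {t : G} (ht : Inv Q t) {D : Subgroup G} (hD : D ≤ CQ Q t) :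
    ∃ K : Subgroup G, K ≤ Q ∧ Nat.card K = Nat.card D * Nat.card (CQ Q t) ∧
      ∀ q ∈ K, t * q * t⁻¹ * q ∈ D := by
  refine ⟨((D.subgroupOf Q).comap (c.del ht.mem)).map Q.subtype, map_subtype_le _, ?_, ?_⟩
  · rw [card_map_subtype, H1.card_comap_eq, c.range_del h ht, c.ker_del,
      inf_eq_right.2 (subgroupOf_mono _ hD), card_subgroupOf (hD.trans inf_le_left),
      card_subgroupOf inf_le_left]
  · rintro _ ⟨q, hq, rfl⟩
    exact hq

theorem card_Q {t : G} (ht : Inv Q t) : Nat.card Q = Nat.card (CQ Q t) * Nat.card (CQ Q t) := by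
  have := H1.card_map_mul_card_inf_ker (c.del ht.mem) ⊤
  rw [← MonoidHom.range_eq_map, inf_top_eq, c.range_del h ht, c.ker_del,
    card_subgroupOf inf_le_left, card_top] at this
  exact this.symm

theorem four_le {t : G} (ht : Inv Q t) : 4 ≤ Nat.card (CQ Q t) := by
  haveI := Fact.mk Nat.prime_two
  obtain ⟨u, hu, h1, h2, -⟩ := c.exu h ht
  obtain ⟨⟨w, hw⟩, hw1⟩ := ne_bot_iff_exists_ne_one.1 c.ne
  have hw1' : w ≠ 1 := fun e => hw1 (Subtype.ext e)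
  have key : ∀ i j : ℕ, i < j → j < 5 → u ^ i * w * (u ^ i)⁻¹ ≠ u ^ j * w * (u ^ j)⁻¹ := by
    intro i j h3 h4 e
    obtain ⟨k, rfl⟩ := Nat.exists_eq_add_of_lt h3
    refine hw1' (h.eq_one_of_comm5 (u := u ^ (k + 1))
      (by rw [← pow_mul, mul_comm, pow_mul, h1, one_pow])
      (fun e' => h2 (eq_one_of_pow e' h1 ?_)) ?_ (c.sq w hw) (by norm_num))
    · have : k < 4 := by omega
      interval_cases k <;> norm_num
    · calc w * u ^ (k + 1) = (u ^ i)⁻¹ * (u ^ i * w * (u ^ i)⁻¹) * u ^ (i + k + 1) := by group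
        _ = _ := by rw [e]; group
  have h5 : 5 ≤ Nat.card Q := by
    have := Nat.card_le_card_of_injective (fun i : Fin 5 => (⟨u ^ (i : ℕ) * w * (u ^ (i : ℕ))⁻¹,
      conj_mem_of_mem_normalizer (pow_mem hu _) hw⟩ : Q)) (fun i j e => by
        have e' := congrArg Subtype.val e
        rcases lt_trichotomy (i : ℕ) j with l | l | l
        · exact absurd e' (key _ _ l j.2)
        · exact Fin.ext l
        · exact absurd e'.symm (key _ _ l i.2))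
    simpa using this
  obtain ⟨k, hk⟩ := IsPGroup.iff_card.1 (c.pg.to_le (inf_le_left : CQ Q t ≤ Q))
  rw [c.card_Q h ht, hk] at h5
  rw [hk]
  have : 2 ≤ k := by
    by_contra hh
    have : k < 2 := by omega
    interval_cases k <;> simp at h5
  exact (Nat.pow_le_pow_right two_pos this)

theorem card_CQ_eq {s t : G} (hs : Inv Q s) (ht : Inv Q t) :
    Nat.card (CQ Q s) = Nat.card (CQ Q t) :=
  Nat.mul_self_inj.1 ((c.card_Q h hs).symm.trans (c.card_Q h ht))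

theorem x3 {r s : G} (hr : Inv Q r) (hs : Inv Q s) (hrs : Inv Q (r * s)) :
    ∃ x ∈ 𝐍(Q), x ^ 3 = 1 ∧ x ≠ 1 ∧ x * r * x⁻¹ * s⁻¹ ∈ Q ∧ x * s * x⁻¹ * (r * s)⁻¹ ∈ Q := by
  obtain ⟨ξ, h1, h2, h3⟩ := a5_x3 _ (c.f_sq hr.mem hr.sq) (c.f_ne hr) _ (c.f_sq hs.mem hs.sq)
    (c.f_ne hs) (by rw [← map_mul]; exact c.f_ne hrs)
    (by rw [← map_mul]; exact c.f_sq hrs.mem hrs.sq)
  obtain ⟨x, rfl, hx⟩ := (h.sub _).lift3 c.surj h1
  refine ⟨x, x.2, by simpa using congrArg Subtype.val hx, fun e => ?_,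
    (c.ker (x * ⟨r, hr.mem⟩ * x⁻¹ * ⟨s, hs.mem⟩⁻¹)).1 ?_,
    (c.ker (x * ⟨s, hs.mem⟩ * x⁻¹ * (⟨r, hr.mem⟩ * ⟨s, hs.mem⟩)⁻¹)).1 ?_⟩
  · rw [show x = 1 from Subtype.ext e, map_one] at h3
    exact c.f_ne hr (by simpa using h3)
  · simp only [map_mul, map_inv, h2, mul_inv_cancel]
  · simp only [map_mul, map_inv, h3, mul_inv_cancel]

theorem stab (h16 : Nat.card Q = 16) {w : G} (hw : w ∈ Q) : ∃ t, Inv Q t ∧ t * w = w * t := by
  by_cases hw1 : w = 1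
  · obtain ⟨t, ht, -⟩ := c.exists_inv h
    exact ⟨t, ht, by simp [hw1]⟩
  letI : MulAction 𝐍(Q) Q := MulAction.compHom Q Q.normalizerMonoidHom
  let S : Subgroup 𝐍(Q) := MulAction.stabilizer 𝐍(Q) (⟨w, hw⟩ : Q)
  have hS : ∀ s ∈ S, (s : G) * w = w * s := fun s hs =>
    mul_inv_eq_iff_eq_mul.1 (congrArg Subtype.val (MulAction.mem_stabilizer_iff.1 hs))
  have h1 : S.index ≤ 16 := by
    rw [MulAction.index_stabilizer, ← h16]; exact Set.ncard_le_card _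
  have h2 := (Nat.le_of_dvd (Nat.pos_of_ne_zero index_ne_zero_of_finite)
    (S.index_map_dvd c.surj)).trans h1
  have h3 := (S.map c.f).card_mul_index
  rw [card_A5] at h3
  have h4 : ¬ 5 ∣ Nat.card (S.map c.f) := fun e => by
    obtain ⟨_, ⟨s, hs, rfl⟩, e1, e2⟩ := exists_five_mem e
    exact hw1 (h.no5 c (s := s) ((c.ker (s ^ 5)).1 (by rw [map_pow, e1]))
      (fun e => e2 ((c.ker s).2 e)) hw (hS s hs))
  have h5 : 2 ∣ Nat.card (S.map c.f) := by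
    generalize Nat.card (S.map c.f) = a at *
    generalize (S.map c.f).index = b at *
    interval_cases b <;> omega
  obtain ⟨_, ⟨s, hs, rfl⟩, e⟩ := H1.exists_mem_orderOf_eq_prime Nat.prime_two h5
  refine ⟨s, ⟨s.2, fun e' => ?_, (c.ker (s * s)).1 ?_⟩, hS s hs⟩
  · rw [(c.ker s).2 e'] at e; simp at e
  · rw [map_mul, ← pow_two, ← e, pow_orderOf_eq_one]

end Cfg

end H8.Six
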