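import Mathlib
import Cfsg.Agent.Base
import Cfsg.Agent.Lib.Six8.Cfg

/-!
Weak closure of `Q`, and triviality of `3`-subgroups normalised by `Q` and an outer element.
-/

set_option autoImplicit false

namespace H8.Six

open Subgroup H69

variable {G : Type*} [Group G] [Finite G]

theorem Ok.inverts (h : Ok G) {Y : Subgroup G} (hY : IsPGroup 3 Y) {s : G} (hs : s ∈ 𝐍(Y))
    (h4 : s ^ 4 = 1) (h2 : s ^ 2 ≠ 1) (hc : s ^ 2 ∈ 𝐂(Y)) : ∀ y ∈ Y, s * y * s⁻¹ = y⁻¹ := by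
  have h1 : MonoidHom.FixedPointFree (cj Y s fun _ => conj_mem_of_mem_normalizer hs) := fun y e => by
    by_contra hy
    exact h2 (h.comm3 (h.pow3_mem hY y.2) (fun e => hy (Subtype.ext e))
      (mul_inv_eq_iff_eq_mul.1 (congrArg Subtype.val e)) h4)
  have h3 := h1.coe_eq_inv_of_involutive fun y => Subtype.ext (by
    show s * (s * y * s⁻¹) * s⁻¹ = y
    have := conj_eq_of_mem_centralizer hc y.2
    rw [sq] at this
    exact Eq.trans (by group) this)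
  intro y hy
  exact congrArg Subtype.val (congrFun h3 ⟨y, hy⟩)

namespace Cfg

variable {Q : Subgroup G} (c : Cfg Q)

omit [Finite G] in
theorem exists_rs {R : Subgroup G} (hR : R ≤ 𝐍(Q)) (hsq : ∀ r ∈ R, r * r ∈ Q)
    (hc : 2 * Nat.card (Q ⊓ R : Subgroup G) < Nat.card R) :
    ∃ r ∈ R, ∃ s ∈ R, Inv Q r ∧ Inv Q s ∧ Inv Q (r * s) := by
  rw [← H1.card_inf_mul_relIndex Q R, mul_comm] at hc
  have h1 := Nat.lt_of_mul_lt_mul_left hc
  by_contra! hh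
  obtain ⟨r, hr, hrQ⟩ : ∃ r ∈ R, r ∉ Q := by
    by_contra! h2
    rw [relIndex_eq_one.2 h2] at h1
    omega
  refine absurd (index_eq_two_iff.2 ⟨⟨r, hr⟩, fun b => ?_⟩ : Q.relIndex R = 2) h1.ne'
  simp only [mem_subgroupOf, coe_mul]
  by_cases hb : (b : G) ∈ Q
  · exact Or.inr ⟨hb, fun e => hrQ ((Q.mul_mem_cancel_left hb).1 e)⟩
  · refine Or.inl ⟨?_, hb⟩
    by_contra e
    exact hh b b.2 r hr ⟨hR b.2, hb, hsq _ b.2⟩ ⟨hR hr, hrQ, hsq _ hr⟩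
      ⟨hR (mul_mem b.2 hr), e, hsq _ (mul_mem b.2 hr)⟩

include c

variable (h : Ok G)
include h

theorem two_mem {R : Subgroup G} (hR : IsPGroup 2 R) (hRH : R ≤ 𝐍(Q)) {r : G} (hr : r ∈ R) :
    r * r ∈ Q := c.two (hRH hr) (h.pow4_mem hR hr ▸ one_mem _)

theorem cosets {R : Subgroup G} (hR : IsPGroup 2 R) (hRH : R ≤ 𝐍(Q)) {r s : G} (hrR : r ∈ R)
    (hr : Inv Q r) (hs : Inv Q s) (hrs : Inv Q (r * s)) {p : G} (hp : p ∈ R) :
    p ∈ Q ∨ p * r ∈ Q ∨ p * s ∈ Q ∨ p * (r * s) ∈ Q :=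
  c.v4 hr hs hrs (hRH hp) (c.two_mem h hR hRH hp) (c.two_mem h hR hRH (mul_mem hp hrR))

/-- A second elementary abelian subgroup of the order of `Q` in `N(Q)`. -/
structure Sec (Q E : Subgroup G) : Prop where
  le : E ≤ 𝐍(Q)
  sq : ∀ e ∈ E, e ^ 2 = 1
  card : Nat.card E = Nat.card Q
  ne : E ≠ Q

omit c h [Finite G] in
theorem Sec.inv {E : Subgroup G} (hE : Sec Q E) {r : G} (hr : r ∈ E) (hrQ : r ∉ Q) : Inv Q r :=
  ⟨hE.le hr, hrQ, by rw [← pow_two, hE.sq r hr]; exact one_mem _⟩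

omit c h in
theorem Sec.exists_out {E : Subgroup G} (hE : Sec Q E) : ∃ r ∈ E, r ∉ Q := by
  by_contra! hh
  exact hE.ne (eq_of_le_of_card_ge hh hE.card.ge)

theorem sec_cards {E : Subgroup G} (hE : Sec Q E) {r : G} (hr : r ∈ E) (hrQ : r ∉ Q) :
    CQ Q r = Q ⊓ E ∧ Nat.card (Q ⊓ E : Subgroup G) = 4 ∧ Nat.card Q = 16 := by
  have h1 : Q ⊓ E ≤ CQ Q r := fun a ha => mem_CQ.2 ⟨ha.1, comm_of_sq hE.sq hr ha.2⟩
  have h2 := c.rel (isPGroup_of_pow (k := 1) hE.sq) hE.le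
  have h3 := card_le_of_le h1
  have h4 := c.four_le h (hE.inv hr hrQ)
  have h5 := c.card_Q h (hE.inv hr hrQ)
  rw [hE.card, h5] at h2
  have h6 : Nat.card (CQ Q r) = 4 := by nlinarith
  rw [h6] at h2 h3 h5
  exact ⟨(eq_of_le_of_card_ge h1 (by omega)).symm, by omega, h5⟩

theorem sec_le {E R : Subgroup G} (hE : Sec Q E) (hR : IsPGroup 2 R) (hRH : R ≤ 𝐍(Q))
    (hER : E ≤ R) {p : G} (hp : p ∈ R) : ∃ q ∈ Q, ∃ e ∈ E, p = q * e := by
  obtain ⟨r0, h1, h2⟩ := hE.exists_out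
  obtain ⟨-, h3, h4⟩ := c.sec_cards h hE h1 h2
  obtain ⟨r, hr, s, hs, i1, i2, i3⟩ := exists_rs hE.le
    (fun r hr => by rw [← pow_two, hE.sq r hr]; exact one_mem _) (by rw [h3, hE.card, h4]; norm_num)
  rcases c.cosets h hR hRH (hER hr) i1 i2 i3 hp with e | e | e | e
  · exact ⟨p, e, 1, one_mem _, by simp⟩
  · exact ⟨_, e, _, inv_mem hr, by simp⟩
  · exact ⟨_, e, _, inv_mem hs, by simp⟩
  · exact ⟨_, e, _, inv_mem (mul_mem hr hs), by group⟩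

theorem sec_invol {E R : Subgroup G} (hE : Sec Q E) (hR : IsPGroup 2 R) (hRH : R ≤ 𝐍(Q))
    (hER : E ≤ R) {p : G} (hp : p ∈ R) (h2 : p * p = 1) : p ∈ Q ∨ p ∈ E := by
  obtain ⟨q, hq, e, he, rfl⟩ := c.sec_le h hE hR hRH hER hp
  by_cases heQ : e ∈ Q
  · exact Or.inl (mul_mem hq heQ)
  have h1 : q ∈ CQ Q e := mem_CQ.2 ⟨hq, by
    have e1 := c.mul_self hq
    have e2 : e * e = 1 := by rw [← pow_two, hE.sq e he]
    calc e * q = (q * q) * (e * q) * (e * e) := by rw [e1, e2]; simp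
      _ = q * (q * e * (q * e)) * e := by group
      _ = _ := by rw [h2, mul_one]⟩
  rw [(c.sec_cards h hE he heQ).1] at h1
  exact Or.inr (mul_mem h1.2 he)

theorem sec_uniq {E E' R : Subgroup G} (hE : Sec Q E) (hE' : Sec Q E') (hR : IsPGroup 2 R)
    (hRH : R ≤ 𝐍(Q)) (hER : E ≤ R) (hER' : E' ≤ R) : E' = E := by
  have key : ∀ e ∈ E', e ∉ Q → e ∈ E := fun e he heQ =>
    (c.sec_invol h hE hR hRH hER (hER' he) (by rw [← pow_two, hE'.sq e he])).resolve_left heQ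
  obtain ⟨r, h1, h2⟩ := hE'.exists_out
  refine eq_of_le_of_card_ge (fun e he => ?_) (hE.card.trans hE'.card.symm).le
  by_cases heQ : e ∈ Q
  · have : e ∈ Q ⊓ E' := ⟨heQ, he⟩
    rw [← (c.sec_cards h hE' h1 h2).1, (c.sec_cards h hE (key r h1 h2) h2).1] at this
    exact this.2
  · exact key e he heQ

omit h in
theorem sec_cj {g : G} (h1 : Q ^ᶜ g ≤ 𝐍(Q)) (h2 : g ∉ 𝐍(Q)) : Sec Q (Q ^ᶜ g) :=
  ⟨h1, (c.cj g).sq, card_cj Q g, fun e => h2 (cj_eq_self_iff.1 e)⟩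

omit h in
theorem le_syl {T : Subgroup G} (hT : IsSylowIn 2 T 𝐍(Q)) : Q ≤ T :=
  hT.le_of_le_normalizer c.pg le_normalizer hT.le

theorem swap {T : Subgroup G} (hT : IsSylowIn 2 T 𝐍(Q)) {s : G} (hs : s ∈ 𝐍(T))
    (hsH : s ∉ 𝐍(Q)) : (Q ^ᶜ s) ^ᶜ s = Q := by
  have h1 : Q ^ᶜ s ≤ T := cj_le_of_mem_normalizer (c.le_syl hT) hs
  have h2 : (Q ^ᶜ s) ^ᶜ s ≤ T := cj_le_of_mem_normalizer h1 hs
  by_contra hh
  have hE := c.sec_cj (h1.trans hT.le) hsH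
  have hE' : Sec Q ((Q ^ᶜ s) ^ᶜ s) :=
    ⟨h2.trans hT.le, ((c.cj s).cj s).sq, by rw [card_cj, card_cj], hh⟩
  exact hE.ne (cj_inj.1 (c.sec_uniq h hE hE' hT.isP hT.le h1 h2))

theorem norm_syl {T : Subgroup G} (hT : IsSylowIn 2 T 𝐍(Q)) : 𝐍(T) ≤ 𝐍(Q) := by
  intro s0 hs0
  by_contra hs0H
  have sqH : ∀ s ∈ 𝐍(T), s ∉ 𝐍(Q) → s * s ∈ 𝐍(Q) := fun s hs hsH => by
    have := c.swap h hT hs hsH
    rwa [cj_cj, cj_eq_self_iff] at this
  obtain ⟨s, hs, hsH, h4⟩ : ∃ s ∈ 𝐍(T), s ∉ 𝐍(Q) ∧ s ^ 4 = 1 := by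
    refine ⟨s0 ^ 15, pow_mem hs0 _, fun e => hs0H ?_, by rw [← pow_mul]; exact h.pow60 s0⟩
    rwa [show s0 ^ 15 = (s0 * s0) ^ 7 * s0 by rw [← pow_two, ← pow_mul, ← pow_succ],
      mul_mem_cancel_left (pow_mem (sqH s0 hs0 hs0H) 7)] at e
  have hQT := c.le_syl hT
  have h1 : Q ^ᶜ s ≤ T := cj_le_of_mem_normalizer hQT hs
  have hE := c.sec_cj (h1.trans hT.le) hsH
  have h44 : s * s * (s * s) = 1 := by rw [← h4]; simp only [pow_succ, pow_zero]; group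
  have h2 : s * s ∈ T := by
    refine hT.le_of_le_normalizer' (R := zpowers (s * s)) ?_ (zpowers_le.2 (sqH s hs hsH))
      (zpowers_le.2 (mul_mem hs hs)) (mem_zpowers _)
    refine isPGroup_of_pow (k := 1) ?_
    rintro _ ⟨k, rfl⟩
    rw [pow_one, ← zpow_natCast, ← zpow_mul, mul_comm, zpow_mul, zpow_natCast, pow_two, h44, one_zpow]
  have hsw := c.swap h hT hs hsH
  have h3 : s * s ∈ Q ∧ s * s ∈ Q ^ᶜ s := by
    have e : s * (s * s) * s⁻¹ = s * s := by group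
    rcases c.sec_invol h hE hT.isP hT.le h1 h2 h44 with e1 | e1
    · exact ⟨e1, e ▸ cj_mem s e1⟩
    · exact ⟨hsw ▸ e ▸ cj_mem s e1, e1⟩
  obtain ⟨v, hv, hvE⟩ : ∃ v ∈ Q, v ∉ Q ^ᶜ s := by
    by_contra! hh
    exact hE.ne (eq_of_le_of_card_ge hh hE.card.le).symm
  have he : s * v * s⁻¹ ∈ Q ^ᶜ s := cj_mem s hv
  have heQ : s * v * s⁻¹ ∉ Q := fun e => hvE (by
    have := cj_mem s e
    rwa [show s * (s * v * s⁻¹) * s⁻¹ = s * s * v * (s * s)⁻¹ by group, c.comm h3.1 hv,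
      mul_inv_cancel_right] at this)
  have e1 : (s * v) ^ 2 = s * v * s⁻¹ * (s * s) * v := by rw [pow_two]; group
  have h5 : (s * v) ^ 2 ∈ T := e1 ▸ mul_mem (mul_mem (h1 he) h2) (hQT hv)
  obtain ⟨k, hk⟩ := exists_pow_of_mem hT.isP h5
  have h6 : (s * v) ^ 4 = 1 := h.pow4 (k := k + 1) (by rw [pow_succ', pow_mul, hk])
  rcases c.sec_invol h hE hT.isP hT.le h1 h5 (by rw [← pow_add, h6]) with e | e
  · rw [e1, mul_mem_cancel_right hv, mul_mem_cancel_right h3.1] at e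
    exact heQ e
  · rw [e1, mul_mem_cancel_left (mul_mem he h3.2)] at e
    exact hvE e

theorem syl_top {T : Subgroup G} (hT : IsSylowIn 2 T 𝐍(Q)) : IsSylowIn 2 T ⊤ :=
  haveI := Fact.mk Nat.prime_two
  isSylowIn_of_normalizer le_top
    (hT.mono (le_inf le_top le_normalizer) (inf_le_right.trans (c.norm_syl h hT)))

/-- `Q` is weakly closed in its normaliser. -/
theorem wc {g : G} (h1 : Q ^ᶜ g ≤ 𝐍(Q)) : g ∈ 𝐍(Q) := by
  haveI := Fact.mk Nat.prime_two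
  by_contra hg
  have hE := c.sec_cj h1 hg
  obtain ⟨T, hT, hET⟩ := exists_isSylowIn_le (isPGroup_cj c.pg g) h1
  have h2 : Q ≤ 𝐍(Q ^ᶜ g) := le_normalizer_of_cj_le fun q hq x hx => by
    obtain ⟨e, he, rfl⟩ := mem_cj'.1 hx
    by_cases heQ : e ∈ Q
    · rwa [c.comm hq heQ, mul_inv_cancel_right]
    · have := c.del_mem (hE.inv he heQ) hq
      rw [(c.sec_cards h hE he heQ).1] at this
      have h3 := mul_mem (Subgroup.inv_mem _ this.2) he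
      rw [show (e * q * e⁻¹ * q)⁻¹ * e = q⁻¹ * e * q⁻¹ by group, c.inv_eq hq] at h3
      rwa [c.inv_eq hq]
  have h3 : T ≤ 𝐍(Q ^ᶜ g) := fun p hp => by
    obtain ⟨q, hq, e, he, rfl⟩ := c.sec_le h hE hT.isP hT.le hET hp
    exact mul_mem (h2 hq) (le_normalizer he)
  have hT' := c.syl_top h hT
  obtain ⟨k, hk, e⟩ := ((hT'.cj_of_mem (mem_top g)).mono (K := 𝐍(Q ^ᶜ g))
    (cj_normalizer Q g ▸ cj_mono g hT.le) le_top).conj (hT'.mono h3 le_top)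
  rw [cj_cj, cj_eq_self_iff] at e
  have := cj_eq_of_mem_normalizer (c.norm_syl h hT e)
  rw [← cj_cj, cj_eq_of_mem_normalizer hk] at this
  exact hE.ne this

theorem wc2 {R : Subgroup G} (hR : IsPGroup 2 R) (hQR : Q ≤ R) : R ≤ 𝐍(Q) := by
  haveI := Fact.mk Nat.prime_two
  obtain ⟨T, hT⟩ := exists_isSylowIn 2 𝐍(Q)
  obtain ⟨g, -, hg⟩ := (c.syl_top h hT).exists_cj_le hR le_top
  have := c.wc h (((cj_mono g hQR).trans hg).trans hT.le)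
  exact (cj_le_iff.1 hg).trans (cj_le_of_mem hT.le (inv_mem this))

theorem o3 {t w : G} (ht : Inv Q t) (hw : w ∈ CQ Q t) (hw1 : w ≠ 1) {Y : Subgroup G}
    (hY : IsPGroup 3 Y) (hQY : Q ≤ 𝐍(Y)) (htY : t ∈ 𝐍(Y)) (hwY : w ∈ 𝐂(Y)) : Y = ⊥ := by
  have htt : t * t ∈ CQ Q t := mem_CQ.2 ⟨ht.sq, (mul_assoc _ _ _).symm⟩
  have sqf : ∀ v ∈ Q, (t * v) ^ 2 = t * t * (t * v * t⁻¹ * v) := fun v hv => by
    rw [← mul_assoc, c.comm ht.sq (conj_mem_of_mem_normalizer ht.mem hv), pow_two]; group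
  have sqC : ∀ v ∈ Q, (t * v) ^ 2 ∈ CQ Q t := fun v hv =>
    sqf v hv ▸ mul_mem htt (c.del_mem ht hv)
  have inv : ∀ v ∈ Q, (t * v) ^ 2 ≠ 1 → (t * v) ^ 2 ∈ 𝐂(Y) →
      ∀ y ∈ Y, t * v * y * (t * v)⁻¹ = y⁻¹ := fun v hv => h.inverts hY (mul_mem htY (hQY hv))
    (by rw [show 4 = 2 * 2 from rfl, pow_mul, c.sq _ (sqC v hv).1])
  obtain ⟨v0, hv0, e0⟩ := c.free h ht (mul_mem (inv_mem htt) hw)
  have e1 : (t * v0) ^ 2 = w := by rw [sqf v0 hv0, ← e0]; group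
  have mulf : ∀ a ∈ Q, (t * (v0 * a)) ^ 2 = w * (t * a * t⁻¹ * a) := fun a ha => by
    rw [← e1, sqf _ (mul_mem hv0 ha), sqf _ hv0]
    have := congrArg Subtype.val (map_mul (c.del ht.mem) ⟨v0, hv0⟩ ⟨a, ha⟩)
    rw [mul_assoc (t * t)]
    exact congrArg _ this
  have cen : ∀ a ∈ Q, w * (t * a * t⁻¹ * a) ≠ 1 → w * (t * a * t⁻¹ * a) ∈ 𝐂(Y) → a ∈ 𝐂(Y) := by
    intro a ha h1 h2
    rw [mem_centralizer_iff_commute]
    intro y hy
    have i1 := inv _ (mul_mem hv0 ha) (by rwa [mulf a ha]) (by rwa [mulf a ha]) y hy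
    rw [← inv v0 hv0 (by rwa [e1]) (by rwa [e1]) y hy] at i1
    calc y * a = (t * v0)⁻¹ * (t * v0 * y * (t * v0)⁻¹) * (t * v0) * a := by group
      _ = _ := by rw [← i1]; group
  have hC : CQ Q t ≤ 𝐂(Y) := fun a ha => by
    have e : t * a * t⁻¹ * a = 1 := by
      rw [(mem_CQ.1 ha).2, mul_inv_cancel_right, c.mul_self ha.1]
    exact cen a ha.1 (by rwa [e, mul_one]) (by rwa [e, mul_one])
  have cen' : ∀ a ∈ Q, a ∉ 𝐂(Y) → w * (t * a * t⁻¹ * a) = 1 := fun a ha h1 => by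
    by_contra h2
    exact h1 (cen a ha h2 (mul_mem hwY (hC (c.del_mem ht ha))))
  obtain ⟨w', hw', h1, h2⟩ : ∃ w' ∈ CQ Q t, w' ≠ 1 ∧ w' ≠ w := by
    by_contra! hh
    have h3 : ((CQ Q t : Subgroup G) : Set G) ⊆ {1, w} := fun a ha => by
      by_cases e : a = 1
      · exact Or.inl e
      · exact Or.inr (hh a ha e)
    have h4 := (Set.ncard_le_ncard h3).trans ((Set.ncard_insert_le 1 {w}).trans_eq (by simp : _ = 2))
    have h5 := c.four_le h ht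
    rw [← Nat.card_coe_set_eq] at h4
    exact absurd (h5.trans h4) (by norm_num)
  obtain ⟨b, hb, eb⟩ := c.free h ht hw'
  have hbY : b ∈ 𝐂(Y) := by
    by_contra hh
    have := cen' b hb hh
    rw [← eb, mul_eq_one_iff_eq_inv, c.inv_eq hw'.1] at this
    exact h2 this.symm
  have hQ : Q ≤ 𝐂(Y) := fun a ha => by
    by_contra hh
    have e2 := cen' a ha hh
    have e3 := cen' _ (mul_mem ha hb) fun e => hh ((mul_mem_cancel_right hbY).1 e)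
    have e4 : t * (a * b) * t⁻¹ * (a * b) = t * a * t⁻¹ * a * (t * b * t⁻¹ * b) := by
      have := congrArg Subtype.val (map_mul (c.del ht.mem) ⟨a, ha⟩ ⟨b, hb⟩)
      exact this
    rw [e4, ← mul_assoc, e2, one_mul, ← eb] at e3
    exact h1 e3
  rw [eq_bot_iff]
  intro y hy
  exact eq_one_of_pow (c.sq y (c.cent h (le_centralizer_iff.1 hQ hy))) (h.pow3_mem hY hy)
    (by norm_num)

end Cfg

end H8.Six
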