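import Mathlib
import Cfsg.Agent.Base
import Cfsg.Agent.Lib.Six8.WC

/-!
Centralisers of subgroups of `Q` fixed by an outer element normalise `Q`.
-/

set_option autoImplicit false

namespace H8.Six

open Subgroup H69 Cfsg

variable {G : Type*} [Group G]

/-- Elements of `X` acting trivially on `P` modulo `B`. -/
def St (X P B : Subgroup G) (hB : X ≤ 𝐍(B)) : Subgroup G where
  carrier := {g | g ∈ X ∧ ∀ p ∈ P, g * p * g⁻¹ * p⁻¹ ∈ B}
  one_mem' := ⟨one_mem _, fun p _ => by simp⟩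
  mul_mem' := by
    rintro a b ⟨ha, ha'⟩ ⟨hb, hb'⟩
    refine ⟨mul_mem ha hb, fun p hp => ?_⟩
    have := mul_mem (conj_mem_of_mem_normalizer (hB ha) (hb' p hp)) (ha' p hp)
    rwa [show a * (b * p * b⁻¹ * p⁻¹) * a⁻¹ * (a * p * a⁻¹ * p⁻¹) =
      a * b * p * (a * b)⁻¹ * p⁻¹ by group] at this
  inv_mem' := by
    rintro a ⟨ha, ha'⟩
    refine ⟨inv_mem ha, fun p hp => ?_⟩
    have := conj_mem_of_mem_normalizer' (hB ha) (inv_mem (ha' p hp))
    rwa [show a⁻¹ * (a * p * a⁻¹ * p⁻¹)⁻¹ * a = a⁻¹ * p * a⁻¹⁻¹ * p⁻¹ by group] at this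

theorem St_conj {X P B : Subgroup G} {hB : X ≤ 𝐍(B)} {x g : G} (hx : x ∈ X) (hxP : x ∈ 𝐍(P))
    (hg : g ∈ St X P B hB) : x * g * x⁻¹ ∈ St X P B hB := by
  refine ⟨mul_mem (mul_mem hx hg.1) (inv_mem hx), fun p hp => ?_⟩
  have := conj_mem_of_mem_normalizer (hB hx) (hg.2 _ (conj_mem_of_mem_normalizer' hxP hp))
  rwa [show x * (g * (x⁻¹ * p * x) * g⁻¹ * (x⁻¹ * p * x)⁻¹) * x⁻¹ =
    x * g * x⁻¹ * p * (x * g * x⁻¹)⁻¹ * p⁻¹ by group] at this

omit [Group G] in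
theorem nat_aux {c d a : ℕ} (h1 : d * c ≤ a) (h2 : a ≤ 4 * d) (h3 : 4 ≤ c) (h4 : 2 ≤ d) :
    c = 4 ∧ a = 4 * d := by
  have : c = 4 := by nlinarith
  subst this
  omega

variable [Finite G]

theorem Ok.cent_of_step (h : Ok G) {P B : Subgroup G} (hB : IsPGroup 2 B) {y : G} (hy : y ^ 15 = 1)
    (h1 : ∀ p ∈ P, y * p * y⁻¹ * p⁻¹ ∈ B) (h2 : y ∈ 𝐂(B)) : y ∈ 𝐂(P) := by
  rw [mem_centralizer_iff_commute]
  intro p hp
  have key : ∀ k : ℕ, y ^ k * p * (y ^ k)⁻¹ = (y * p * y⁻¹ * p⁻¹) ^ k * p := by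
    intro k
    induction k with
    | zero => simp
    | succ k ih =>
      calc _ = y * (y ^ k * p * (y ^ k)⁻¹) * y⁻¹ := by group
        _ = (y * (y * p * y⁻¹ * p⁻¹) ^ k * y⁻¹) * (y * p * y⁻¹ * p⁻¹) * p := by rw [ih]; group
        _ = _ := by rw [conj_eq_of_mem_centralizer h2 (pow_mem (h1 p hp) k), ← pow_succ]
  have e := key 15
  rw [hy, one_mul, inv_one, mul_one, right_eq_mul] at e
  have e2 := eq_one_of_pow e (h.pow4_mem hB (h1 p hp)) (by norm_num)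
  calc p * y = (y * p * y⁻¹ * p⁻¹) * p * y := by rw [e2, one_mul]
    _ = _ := by group

theorem Ok.st_pg (h : Ok G) {X X' P B : Subgroup G} (hP : IsPGroup 2 P) (hBP : B ≤ P)
    (hC : X ⊓ 𝐂(P) ≤ P) (hX : X' ≤ X) (hB : X' ≤ 𝐍(B)) :
    IsPGroup 2 (St X' P B hB ⊓ 𝐂(B) : Subgroup G) := by
  refine isPGroup_of_pow (k := 2) fun g hg => ?_
  have h1 := pow_mem hg 4
  have h2 : (g ^ 4) ^ 15 = 1 := by rw [← pow_mul]; exact h.pow60 g
  exact eq_one_of_pow h2 (h.pow4_mem hP (hC ⟨hX h1.1.1,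
    h.cent_of_step (hP.to_le hBP) h2 h1.1.2 h1.2⟩)) (by norm_num)

/-- Counting in the extraspecial group of order `32`. -/
theorem Ok.count (h : Ok G) {P R : Subgroup G} (hP : IsPGroup 2 P) (hR : IsPGroup 3 R)
    (hRP : R ≤ 𝐍(P)) {p : G} (hp : p ∈ P) (hp2 : p ^ 2 ≠ 1) {β : Type*} [Finite β] (F : β → P)
    (hF : Function.Injective F) (hF2 : ∀ b, (F b : G) ^ 2 = 1) :
    Nat.card R * 2 + Nat.card β ≤ Nat.card P := by
  have fix : ∀ s ∈ R, p * s = s * p → s = 1 := fun s hs e => by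
    by_contra hh
    exact hp2 (h.comm3 (h.pow3_mem hR hs) hh e (h.pow4_mem hP hp))
  let F1 : R → P := fun g => ⟨g * p * (g : G)⁻¹, conj_mem_of_mem_normalizer (hRP g.2) hp⟩
  have i1 : Function.Injective F1 := fun a b e => by
    have e1 : (a : G) * p * (a : G)⁻¹ = b * p * (b : G)⁻¹ := congrArg Subtype.val e
    have := fix ((b : G)⁻¹ * a) (mul_mem (inv_mem b.2) a.2) (by
      calc _ = (b : G)⁻¹ * (b * p * (b : G)⁻¹) * a := by group
        _ = _ := by rw [← e1]; group)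
    exact Subtype.ext (inv_mul_eq_one.1 this).symm
  have i2 : ∀ a b, F1 a ≠ (F1 b)⁻¹ := fun a b e => by
    have e1 : (a : G) * p * (a : G)⁻¹ = (b * p * (b : G)⁻¹)⁻¹ := congrArg Subtype.val e
    have hs : (b : G)⁻¹ * a ∈ R := mul_mem (inv_mem b.2) a.2
    have e2 : (b : G)⁻¹ * a * p * ((b : G)⁻¹ * a)⁻¹ = p⁻¹ := by
      calc _ = (b : G)⁻¹ * (a * p * (a : G)⁻¹) * b := by group
        _ = _ := by rw [e1]; group
    generalize (b : G)⁻¹ * a = s at hs e2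
    have e3 := fix (s * s) (mul_mem hs hs) (by
      refine (mul_inv_eq_iff_eq_mul.1 ?_).symm
      calc _ = s * (s * p * s⁻¹) * s⁻¹ := by group
        _ = s * p⁻¹ * s⁻¹ := by rw [e2]
        _ = (s * p * s⁻¹)⁻¹ := by group
        _ = p := by rw [e2, inv_inv])
    rw [eq_one_of_pow (h.pow3_mem hR hs) (by rw [pow_two, e3]) (by norm_num)] at e2
    exact hp2 (by rw [pow_two, ← eq_inv_iff_mul_eq_one, ← e2]; simp)
  have i3 : ∀ a, (F1 a : G) ^ 2 ≠ 1 := fun a e => hp2 (by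
    rwa [conj_pow, conj_eq_one_iff] at e)
  have := Nat.card_le_card_of_injective (Sum.elim (Sum.elim F1 fun b => (F1 b)⁻¹) F)
    ((i1.sumElim (inv_injective.comp i1) i2).sumElim hF (by
      rintro (a | a) b e
      · exact i3 a (by rw [show F1 a = F b from e]; exact hF2 b)
      · refine i3 a ?_
        have := hF2 b
        rwa [← show (F1 a)⁻¹ = F b from e, coe_inv, inv_pow, inv_eq_one] at this))
  rwa [Nat.card_sum, Nat.card_sum, ← mul_two] at this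

namespace Cfg

variable {Q : Subgroup G} (c : Cfg Q) (h : Ok G)
include c h

theorem cent_step {D : Subgroup G} (hDQ : D ≤ Q) (hD : D ≠ ⊥) {t : G} (ht : Inv Q t)
    (htD : t ∈ 𝐂(D))
    (ih : ∀ D', D < D' → D' ≤ Q → ∀ t, Inv Q t → t ∈ 𝐂(D') → 𝐂(D') ≤ 𝐍(Q)) :
    𝐂(D) ≤ 𝐍(Q) := by
  haveI := Fact.mk Nat.prime_two
  haveI := Fact.mk Nat.prime_three
  set X := 𝐂(D) with hX
  have cD : ∀ x ∈ X, ∀ d ∈ D, d * x = x * d := fun x hx => mem_centralizer_iff_commute.1 hx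
  have hQX : Q ≤ X := fun q hq => mem_centralizer_iff_commute.2 fun d hd => c.comm (hDQ hd) hq
  obtain ⟨⟨w, hw⟩, hw1⟩ := ne_bot_iff_exists_ne_one.1 hD
  have hw1' : w ≠ 1 := fun e => hw1 (Subtype.ext e)
  have h5 : ¬ 5 ∣ Nat.card X := fun e => by
    obtain ⟨u, hu, h1, h2⟩ := exists_five_mem e
    exact hw1' (h.eq_one_of_comm5 h1 h2 (cD u hu w hw) (c.sq w (hDQ hw)) (by norm_num))
  set P := pCoreOf 2 X with hP
  have hP2 : IsPGroup 2 P := H1.isPGroup_pCoreOf X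
  have hPX : P ≤ X := H1.pCoreOf_le X
  have hXP : X ≤ 𝐍(P) := H1.le_normalizer_pCoreOf X
  have hC : X ⊓ 𝐂(P) ≤ P := by
    have e : fittingOf X = P := by
      refine le_antisymm ?_ (H1.pCoreOf_le_fittingOf 2 X)
      rw [H1.fittingOf_eq_iSup_pCoreOf]
      refine iSup_le fun ⟨p, hp⟩ => ?_
      haveI := Fact.mk hp
      by_cases e : p ∣ Nat.card X
      · rcases (h.sub X).prime_dvd hp e with rfl | rfl | rfl
        · exact le_rfl
        · refine (c.o3 h ht (mem_CQ.2 ⟨hDQ hw, (cD t htD w hw).symm⟩) hw1' (H1.isPGroup_pCoreOf X)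
            (hQX.trans (H1.le_normalizer_pCoreOf X)) (H1.le_normalizer_pCoreOf X htD) ?_).trans_le
            bot_le
          exact mem_centralizer_iff_commute.2 fun y hy => (cD y (H1.pCoreOf_le X hy) w hw).symm
        · exact absurd e h5
      · exact (eq_bot_of_not_dvd (H1.isPGroup_pCoreOf X) (H1.pCoreOf_le X) e).trans_le bot_le
    have := H1.inf_centralizer_fittingOf_le ((h.sub X).solvable h5)
    rwa [e] at this
  have hPH : P ≤ 𝐍(Q) := le_sup_right.trans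
    (c.wc2 h (isPGroup_sup_of_le_normalizer_right c.pg hP2 (hQX.trans hXP)) le_sup_left)
  have hXD : X ≤ 𝐍(D) := le_normalizer_of_le_centralizer le_rfl
  have hDP : D ≤ P := H1.le_pCoreOf (hDQ.trans hQX) hXD (c.pg.to_le hDQ)
  set A := Q ⊓ P with hA
  have KI : ∀ g ∈ X, (∀ p ∈ P, g * p * g⁻¹ * p⁻¹ ∈ D) → g ∈ P := fun g hg h1 => by
    refine H1.le_pCoreOf (K := St X P D hXD ⊓ X) inf_le_right (le_normalizer_of_cj_le ?_)
      (h.st_pg hP2 hDP hC le_rfl hXD) ⟨⟨hg, h1⟩, hg⟩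
    intro x hx y hy
    obtain ⟨z, hz, rfl⟩ := mem_cj'.1 hy
    exact ⟨St_conj hx (hXP hx) hz.1, X.mul_mem (X.mul_mem hx hz.2) (X.inv_mem hx)⟩
  have cQP : ∀ q ∈ Q, ∀ p ∈ P, q * p * q⁻¹ * p⁻¹ ∈ A := fun q hq p hp =>
    ⟨by
      rw [mul_assoc, mul_assoc, ← mul_assoc p]
      exact mul_mem hq (conj_mem_of_mem_normalizer (hPH hp) (inv_mem hq)),
    P.mul_mem (conj_mem_of_mem_normalizer (hXP (hQX hq)) hp) (P.inv_mem hp)⟩
  have NA : ∀ y ∈ X, y ∈ 𝐍(A) → y ∈ 𝐍(Q) := fun y hy hyA => by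
    have hQS : Q ≤ St (X ⊓ 𝐍(A)) P A inf_le_right ⊓ 𝐂(A) := fun q hq => by
      have h1 : q ∈ 𝐂(A) := mem_centralizer_iff_commute.2 fun a ha => c.comm ha.1 hq
      exact ⟨⟨⟨hQX hq, centralizer_le_normalizer _ h1⟩, cQP q hq⟩, h1⟩
    refine c.wc h (le_trans (fun z hz => ?_)
      (c.wc2 h (h.st_pg hP2 inf_le_right hC inf_le_left inf_le_right) hQS))
    obtain ⟨q, hq, rfl⟩ := mem_cj'.1 hz
    exact ⟨St_conj ⟨hy, hyA⟩ (hXP hy) (hQS hq).1,
      conj_mem_of_mem_normalizer (normalizer_le_normalizer_centralizer A hyA) (hQS hq).2⟩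
  have invP : ∀ p ∈ P, p ∉ Q → Inv Q p := fun p hp hpQ => ⟨hPH hp, hpQ, c.two_mem h hP2 hPH hp⟩
  have M : ∀ y ∈ X, y ∉ 𝐍(Q) → ∀ a ∈ A, y * a * y⁻¹ ∈ Q → a ∈ D := fun y hy hyH a ha h1 => by
    obtain ⟨r, hr, hrA⟩ : ∃ r ∈ A ^ᶜ y, r ∉ A := by
      by_contra! hh
      exact hyH (NA y hy (mem_normalizer_of_cj_le hh))
    have hAy : A ^ᶜ y ≤ P := cj_le_of_mem_normalizer inf_le_right (hXP hy)
    have hAQ : A ^ᶜ y ≤ Q ^ᶜ y := cj_mono y inf_le_left
    have h2 : Q ^ᶜ y ≤ 𝐂((A ⊓ A ^ᶜ y : Subgroup G)) := fun q hq =>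
      mem_centralizer_iff_commute.2 fun b hb => (c.cj y).comm (hAQ hb.2) hq
    have h3 : D ≤ A ⊓ A ^ᶜ y := fun d hd => ⟨⟨hDQ hd, hDP hd⟩, by
      have := cj_mem y (show d ∈ A from ⟨hDQ hd, hDP hd⟩)
      rwa [← cD y hy d hd, mul_inv_cancel_right] at this⟩
    have h4 : D = A ⊓ A ^ᶜ y := by
      by_contra hh
      exact hyH (c.wc h (h2.trans (ih _ (lt_of_le_of_ne h3 hh) (inf_le_left.trans inf_le_left) r
        (invP r (hAy hr) fun e => hrA ⟨e, hAy hr⟩) (h2 (hAQ hr)))))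
    have h6 : y * a * y⁻¹ ∈ D := h4 ▸ ⟨⟨h1, hAy (cj_mem y ha)⟩, cj_mem y ha⟩
    have := conj_mem_of_mem_normalizer' (hXD hy) h6
    rwa [show y⁻¹ * (y * a * y⁻¹) * y = a by group] at this
  intro x hx
  by_contra hxH
  have NQ : ¬ Q ≤ P := fun e =>
    hxH (c.wc h ((cj_le_of_mem_normalizer e (hXP hx)).trans hPH))
  have hAx : A ^ᶜ x ≤ P := cj_le_of_mem_normalizer inf_le_right (hXP hx)
  have KA : ∀ a ∈ A, a ∉ D → ∀ q ∈ Q, x * a * x⁻¹ * q * (x * a * x⁻¹)⁻¹ * q ∈ D → q ∈ P := by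
    intro a ha haD q hq h1
    have hy : x⁻¹ * q * x ∈ X := mul_mem (mul_mem (inv_mem hx) (hQX hq)) hx
    set y := x⁻¹ * q * x with hy'
    have hyy : y * y = 1 := by
      rw [hy', show x⁻¹ * q * x * (x⁻¹ * q * x) = x⁻¹ * (q * q) * x by group, c.mul_self hq]
      simp
    have hyH : y ∈ 𝐍(Q) := by
      by_contra hh
      refine haD (M y hy hh a ha ?_)
      have := mul_mem (inv_mem (hDQ (conj_mem_of_mem_normalizer' (hXD hx) h1))) ha.1
      rwa [show (x⁻¹ * (x * a * x⁻¹ * q * (x * a * x⁻¹)⁻¹ * q) * x)⁻¹ * a = y⁻¹ * a * y⁻¹ by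
        rw [hy']; group, inv_eq_of_mul_eq_one_right hyy,
        show y * a * y = y * a * y⁻¹ by rw [inv_eq_of_mul_eq_one_right hyy]] at this
    have h2 : y ∈ P := KI y hy fun p hp => by
      have e1 : (y * p) ^ 2 = y * p * y⁻¹ * p := by
        rw [inv_eq_of_mul_eq_one_right hyy, pow_two, mul_assoc (y * p)]
      have h3 : y * p * y⁻¹ ∈ P := conj_mem_of_mem_normalizer (hXP hy) hp
      obtain ⟨k, hk⟩ := exists_pow_of_mem hP2 (mul_mem h3 hp)
      have h4 : (y * p) ^ 4 = 1 := h.pow4 (k := k + 1) (by rw [pow_succ', pow_mul, e1, hk])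
      have h6 := mul_mem (c.two (mul_mem hyH (hPH hp)) (h4 ▸ one_mem _))
        (inv_mem (c.two_mem h hP2 hPH hp))
      rw [← pow_two, e1, show y * p * y⁻¹ * p * (p * p)⁻¹ = y * p * y⁻¹ * p⁻¹ by group] at h6
      refine M x hx hxH _ ⟨h6, P.mul_mem h3 (P.inv_mem hp)⟩ ?_
      have := (cQP q hq _ (conj_mem_of_mem_normalizer (hXP hx) hp)).1
      rwa [show q * (x * p * x⁻¹) * q⁻¹ * (x * p * x⁻¹)⁻¹ = x * (y * p * y⁻¹ * p⁻¹) * x⁻¹ by
        rw [hy']; group] at this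
    have := conj_mem_of_mem_normalizer (hXP hx) h2
    rwa [hy', show x * (x⁻¹ * q * x) * x⁻¹ = q by group] at this
  have invA : ∀ a ∈ A, a ∉ D → Inv Q (x * a * x⁻¹) := fun a ha haD =>
    invP _ (hAx (cj_mem x ha)) fun e => haD (M x hx hxH a ha e)
  have DC : ∀ p ∈ P, D ≤ CQ Q p := fun p hp d hd => mem_CQ.2 ⟨hDQ hd, (cD p (hPX hp) d hd).symm⟩
  obtain ⟨a0, ha0, ha0D⟩ : ∃ a ∈ A, a ∉ D := by
    by_contra! hh
    exact NQ fun q hq => KI q (hQX hq) fun p hp => hh _ (cQP q hq p hp)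
  have hd2 : 2 ≤ Nat.card D := (one_lt_card_iff_ne_bot D).2 hD
  have hQA : Q ⊓ A ^ᶜ x ≤ D := by
    rintro z ⟨h1, h2⟩
    obtain ⟨a, ha, rfl⟩ := mem_cj'.1 h2
    exact conj_mem_of_mem_normalizer (hXD hx) (M x hx hxH a ha h1)
  have n1 : Nat.card A ≤ 4 * Nat.card D := by
    have := c.rel (hP2.to_le hAx) (hAx.trans hPH)
    rw [card_cj] at this
    exact this.trans (Nat.mul_le_mul_left _ (card_le_of_le hQA))
  obtain ⟨K, hKQ, hK1, hK2⟩ := c.card_K h (invA a0 ha0 ha0D) (DC _ (hAx (cj_mem x ha0)))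
  have n2 : Nat.card K ≤ Nat.card A :=
    card_le_of_le fun q hq => ⟨hKQ hq, KA a0 ha0 ha0D q (hKQ hq) (hK2 q hq)⟩
  obtain ⟨n3, n4⟩ := nat_aux (hK1 ▸ n2) n1 (c.four_le h (invA a0 ha0 ha0D)) hd2
  have n5 : ∀ p, Inv Q p → Nat.card (CQ Q p) = 4 := fun p hp =>
    (c.card_CQ_eq h hp (invA a0 ha0 ha0D)).trans n3
  have n6 : Nat.card Q = 16 := by rw [c.card_Q h ht, n5 t ht]
  have n7 : Nat.card A < 16 :=
    n6 ▸ H1.card_lt_of_lt (lt_of_le_of_ne inf_le_left fun e => NQ (inf_eq_left.1 e))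
  have n8 : Nat.card D = 2 := by
    have := card_dvd_of_le hDQ
    rw [n6] at this
    have h1 : Nat.card D < 4 := by omega
    interval_cases Nat.card D <;> simp_all
  have n9 : Nat.card A = 8 := by omega
  obtain ⟨r, hr, s, hs, i1, i2, i3⟩ := exists_rs (hAx.trans hPH)
    (fun r hr => c.two_mem h hP2 hPH (hAx hr))
    (by rw [card_cj, n9]; have := card_le_of_le hQA; omega)
  have CA : ∀ p ∈ P, p ∉ Q → CQ Q p ≤ A := fun p hp hpQ z hz => ⟨hz.1, by
    obtain ⟨v, hv, rfl⟩ := c.free h (invP p hp hpQ) hz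
    have := mul_mem hp (conj_mem_of_mem_normalizer (hXP (hQX hv)) (inv_mem hp))
    rwa [c.inv_eq hv, ← mul_assoc, ← mul_assoc] at this⟩
  have ZD : ∀ z ∈ Q, r * z = z * r → s * z = z * s → z ∈ D := fun z hz e1 e2 => by
    by_contra hzD
    have hzA := CA r (hAx hr) i1.out (mem_CQ.2 ⟨hz, e1⟩)
    have h1 : ∀ p ∈ P, Commute p z := fun p hp => by
      have cq : ∀ q ∈ Q, Commute q z := fun q hq => c.comm hq hz
      have c1 : Commute r z := e1
      have c2 : Commute s z := e2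
      rcases c.cosets h hP2 hPH (hAx hr) i1 i2 i3 hp with e | e | e | e
      · exact cq p e
      · simpa using (cq _ e).mul_left c1.inv_left
      · simpa using (cq _ e).mul_left c2.inv_left
      · have := (cq _ e).mul_left (c1.mul_left c2).inv_left
        rwa [mul_inv_cancel_right] at this
    have h2 : A ≤ CQ Q (x * z * x⁻¹) := fun a ha => mem_CQ.2 ⟨ha.1, by
      have := (h1 _ (conj_mem_of_mem_normalizer' (hXP hx) ha.2)).eq
      calc _ = x * (z * (x⁻¹ * a * x)) * x⁻¹ := by group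
        _ = _ := by rw [← this]; group⟩
    have := card_le_of_le h2
    rw [n9, n5 _ (invA z hzA hzD)] at this
    omega
  obtain ⟨z, hz, z1, z2, z3, z4⟩ := c.x3 h i1 i2 i3
  have hzX : z ∈ X := by
    rw [hX, mem_centralizer_iff_commute]
    intro d hd
    have cq : ∀ q ∈ Q, Commute q d := fun q hq => c.comm hq (hDQ hd)
    have c1 : Commute r d := (cD r (hPX (hAx hr)) d hd).symm
    have c2 : Commute s d := (cD s (hPX (hAx hs)) d hd).symm
    have c3 := ((cq _ z3).mul_left c2).eq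
    have c4 := ((cq _ z4).mul_left (c1.mul_left c2)).eq
    rw [inv_mul_cancel_right] at c3 c4
    have h1 := ZD _ (conj_mem_of_mem_normalizer' hz (hDQ hd))
      (by calc _ = z⁻¹ * (z * r * z⁻¹ * d) * z := by group
            _ = _ := by rw [c3]; group)
      (by calc _ = z⁻¹ * (z * s * z⁻¹ * d) * z := by group
            _ = _ := by rw [c4]; group)
    by_cases e : d = 1
    · simp [e]
    · obtain ⟨y, -, hy⟩ := (Nat.card_eq_two_iff' (1 : D)).1 n8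
      have e1 := (hy ⟨_, h1⟩ fun e' => e (by
        have : z⁻¹ * d * z = 1 := congrArg Subtype.val e'
        calc d = z * (z⁻¹ * d * z) * z⁻¹ := by group
          _ = 1 := by rw [this]; simp)).trans (hy ⟨d, hd⟩ fun e' => e (congrArg Subtype.val e')).symm
      have e2 : z⁻¹ * d * z = d := congrArg Subtype.val e1
      calc d * z = z * (z⁻¹ * d * z) := by group
        _ = _ := by rw [e2]
  have h9 : 3 ^ 2 ∣ Nat.card X := by
    obtain ⟨T, hT, hQT⟩ := exists_isSylowIn_le c.pg hQX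
    have h1 := hT.not_dvd_relIndex_of_le (K := 𝐍(Q) ⊓ X) (le_inf (c.wc2 h hT.isP hQT) hT.le)
      inf_le_right
    have h2 := H1.card_mul_relIndex_of_le (inf_le_right : 𝐍(Q) ⊓ X ≤ X)
    have h3 : (𝐍(Q) ⊓ X).relIndex X ≠ 1 := fun e => hxH (relIndex_eq_one.1 e hx).1
    obtain ⟨p, hp, hpd⟩ := Nat.exists_prime_and_dvd h3
    have h4 : p ∣ Nat.card X := h2 ▸ hpd.mul_left _
    rw [← h2, pow_two]
    refine Nat.mul_dvd_mul (orderOf_eq_prime z1 z2 ▸ orderOf_dvd_natCard _ ⟨hz, hzX⟩) ?_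
    rcases (h.sub X).prime_dvd hp h4 with rfl | rfl | rfl
    exacts [absurd hpd h1, hpd, absurd h4 h5]
  obtain ⟨R, hR⟩ := Sylow.exists_subgroup_card_pow_prime 3 h9
  obtain ⟨a, ha, haC⟩ : ∃ a ∈ A, a ∉ CQ Q r := by
    by_contra! hh
    have := card_le_of_le hh
    rw [n9, n5 r i1] at this
    omega
  have rr : ∀ p ∈ A ^ᶜ x, p * p = 1 := fun p hp => (c.cj x).mul_self (cj_mono x inf_le_left hp)
  let F2 : ∀ p ∈ A ^ᶜ x, p ∉ Q → CQ Q p → P := fun p hp hpQ z =>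
    ⟨p * z, mul_mem (hAx hp) (CA p (hAx hp) hpQ z.2).2⟩
  have j1 : ∀ p hp hpQ, Function.Injective (F2 p hp hpQ) := fun p hp hpQ a b e =>
    Subtype.ext (mul_left_cancel (congrArg Subtype.val e : p * a = p * b))
  have j2 : ∀ p hp hpQ z, (F2 p hp hpQ z : G) ^ 2 = 1 := fun p hp hpQ z => by
    show (p * z) ^ 2 = 1
    rw [(show Commute p z from (mem_CQ.1 z.2).2).mul_pow, pow_two p, rr p hp, c.sq _ z.2.1, one_mul]
  have := h.count hP2 (R := R.map X.subtype) (IsPGroup.of_card (by rw [card_map_subtype, hR]))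
    ((map_subtype_le R).trans hXP) (mul_mem ha.2 (hAx hr)) (fun e => haC (mem_CQ.2 ⟨ha.1, by
      rw [pow_two] at e
      calc r * a = (a * a) * (r * a) * (r * r) := by rw [c.mul_self ha.1, rr r hr]; simp
        _ = a * (a * r * (a * r)) * r := by group
        _ = _ := by rw [e, mul_one]⟩))
    (Sum.elim (inclusion (inf_le_right : A ≤ P)) (Sum.elim (F2 r hr i1.out) (F2 s hs i2.out)))
    ((inclusion_injective _).sumElim (((j1 r hr i1.out).sumElim (j1 s hs i2.out) fun a b e => i3.out (by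
      have e1 : r * a = s * b := congrArg Subtype.val e
      rw [show r * s = r * (s * b) * (b : G)⁻¹ by group, ← e1, ← mul_assoc, rr r hr, one_mul]
      exact mul_mem a.2.1 (inv_mem b.2.1)))) (by
      rintro a (b | b) e
      · have e1 : (a : G) = r * b := congrArg Subtype.val e
        exact i1.out ((Q.mul_mem_cancel_right b.2.1).1 (e1 ▸ a.2.1))
      · have e1 : (a : G) = s * b := congrArg Subtype.val e
        exact i2.out ((Q.mul_mem_cancel_right b.2.1).1 (e1 ▸ a.2.1))))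
    (by
      rintro (a | a | a)
      exacts [c.sq _ a.2.1, j2 r hr i1.out a, j2 s hs i2.out a])
  have h32 := c.rel hP2 hPH
  rw [card_map_subtype, hR, Nat.card_sum, Nat.card_sum, n9, n5 r i1, n5 s i2] at this
  rw [← hA, n9] at h32
  omega

theorem cent_le (D : Subgroup G) : D ≤ Q → D ≠ ⊥ → ∀ t, Inv Q t → t ∈ 𝐂(D) → 𝐂(D) ≤ 𝐍(Q) := by
  induction D using WellFoundedGT.induction with
  | ind D ih =>
    intro hDQ hD t ht htD
    exact c.cent_step h hDQ hD ht htD fun D' h1 h2 => ih D' h1 h2 (h1.bot_lt).ne'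

theorem cent_elt {t w g : G} (ht : Inv Q t) (hw : w ∈ CQ Q t) (hw1 : w ≠ 1) (hg : g * w = w * g) :
    g ∈ 𝐍(Q) := by
  refine c.cent_le h (zpowers w) (zpowers_le.2 hw.1) (zpowers_ne_bot.2 hw1) t ht ?_ ?_
  · rw [centralizer_zpowers, mem_centralizer_singleton_iff]; exact (mem_CQ.1 hw).2
  · rw [centralizer_zpowers, mem_centralizer_singleton_iff]; exact hg

end Cfg

end H8.Six
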