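import Mathlib
import Cfsg.Agent.Base
import Cfsg.Agent.Lib.Six8.Cent

/-!
Either `Q` is strongly closed, or all involution centralisers are `2`-groups.
-/

set_option autoImplicit false

namespace H8.Six

open Subgroup H69 Cfsg

variable {G : Type*} [Group G] [Finite G]

namespace Cfg

variable {Q : Subgroup G} (c : Cfg Q) (h : Ok G)
include c h

theorem no_three {r s : G} (hr : Inv Q r) (hs : Inv Q s) (hrs : Inv Q (r * s))
    (hZ : CQ Q s = CQ Q r) (h16 : Nat.card Q = 16) {w x : G} (hw : w ∈ CQ Q r) (hw1 : w ≠ 1)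
    (hx : x * w = w * x) (hx3 : x ^ 3 = 1) : x = 1 := by
  haveI := Fact.mk Nat.prime_two
  by_contra hx1
  have hxH := c.cent_elt h hr hw hw1 hx
  have hxQ : x ∉ Q := fun e => hx1 (eq_one_of_pow (c.sq x e) hx3 (by norm_num))
  have n4 : Nat.card (CQ Q r) = 4 :=
    Nat.mul_self_inj.1 ((c.card_Q h hr).symm.trans h16)
  have lst : ∀ a ∈ [c.f ⟨r, hr.mem⟩, c.f ⟨s, hs.mem⟩, c.f ⟨r, hr.mem⟩ * c.f ⟨s, hs.mem⟩],
      ∃ a' : 𝐍(Q), c.f a' = a ∧ ∀ z ∈ CQ Q r, Commute (a' : G) z := by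
    have c1 : ∀ z ∈ CQ Q r, Commute r z := fun z hz => (mem_CQ.1 hz).2
    have c2 : ∀ z ∈ CQ Q r, Commute s z := fun z hz => (mem_CQ.1 (hZ ▸ hz)).2
    simp only [List.mem_cons, List.not_mem_nil, or_false]
    rintro a (rfl | rfl | rfl)
    exacts [⟨_, rfl, c1⟩, ⟨_, rfl, c2⟩, ⟨_, map_mul _ _ _, fun z hz => (c1 z hz).mul_left (c2 z hz)⟩]
  have five : ∀ a b g : 𝐍(Q), (c.f a * (c.f g * c.f b * (c.f g)⁻¹)) ^ 5 = 1 →
      c.f a * (c.f g * c.f b * (c.f g)⁻¹) ≠ 1 → ∀ z ∈ Q, Commute (a : G) z →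
      Commute ((g : G) * b * (g : G)⁻¹) z → z = 1 := fun a b g h1 h2 z hz c1 c2 =>
    h.no5 c (s := (a * (g * b * g⁻¹) : 𝐍(Q)))
      ((c.ker ((a * (g * b * g⁻¹)) ^ 5)).1 (by simpa using h1))
      (fun e => h2 (by simpa using (c.ker (a * (g * b * g⁻¹))).2 e)) hz (c1.mul_left c2)
  rcases a5_three _ (c.f_sq hr.mem hr.sq) (c.f_ne hr) _ (c.f_sq hs.mem hs.sq) (c.f_ne hs)
    (by rw [← map_mul]; exact c.f_ne hrs) (by rw [← map_mul]; exact c.f_sq hrs.mem hrs.sq)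
    (c.f ⟨x, hxH⟩) (by rw [← map_pow]; exact (c.ker _).2 (by simp [hx3]))
    (fun e => hxQ ((c.ker _).1 e)) with ⟨a, ha, b, hb, h1, h2⟩ | ⟨h0, η, hη, a, ha, b, hb, h1, h2⟩
  · obtain ⟨a, rfl, ca⟩ := lst a ha
    obtain ⟨b, rfl, cb⟩ := lst b hb
    exact hw1 (five a b ⟨x, hxH⟩ h1 h2 w hw.1 (ca w hw)
      (((show Commute x w from hx).mul_left (cb w hw)).mul_left (show Commute x w from hx).inv_left))
  obtain ⟨a, rfl, ca⟩ := lst a ha
  obtain ⟨b, rfl, cb⟩ := lst b hb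
  obtain ⟨d, hd, cd⟩ := lst _ h0
  obtain ⟨η, rfl⟩ := c.surj η
  have cq : ∀ q ∈ Q, ∀ z ∈ CQ Q r, Commute q z := fun q hq z hz => c.comm hq hz.1
  have hd' : x⁻¹ * r * x * (d : G)⁻¹ ∈ Q :=
    (c.ker (⟨x, hxH⟩⁻¹ * ⟨r, hr.mem⟩ * ⟨x, hxH⟩ * d⁻¹)).1 (by simp [hd])
  have hη' : (η : G)⁻¹ * x * η * x ∈ Q :=
    (c.ker (η⁻¹ * ⟨x, hxH⟩ * η * ⟨x, hxH⟩)).1 (by simpa using hη)
  have nZ : ∀ z ∈ CQ Q r, x * z * x⁻¹ ∈ CQ Q r := fun z hz =>
    mem_CQ.2 ⟨conj_mem_of_mem_normalizer hxH hz.1, by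
      have := ((cq _ hd' z hz).mul_left (cd z hz)).eq
      rw [inv_mul_cancel_right] at this
      calc _ = x * (x⁻¹ * r * x * z) * x⁻¹ := by group
        _ = _ := by rw [this]; group⟩
  have hxZ : x ∈ 𝐂(CQ Q r) := by
    let K := CQ Q r ⊓ centralizer {x}
    have mK : ∀ z, z ∈ K ↔ z ∈ CQ Q r ∧ z * x = x * z := fun z =>
      and_congr_right' mem_centralizer_singleton_iff
    by_cases e : CQ Q r ≤ K
    · exact mem_centralizer_iff_commute.2 fun z hz => ((mK z).1 (e hz)).2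
    have h3 : K.relIndex (CQ Q r) = 2 := by
      have e1 := H1.card_mul_relIndex_of_le (inf_le_left : K ≤ CQ Q r)
      have e2 : 1 < Nat.card K := (one_lt_card_iff_ne_bot K).2 fun e' => hw1 (by
        have : w ∈ K := (mK w).2 ⟨hw, hx.symm⟩
        rwa [e', mem_bot] at this)
      have e3 : K.relIndex (CQ Q r) ≠ 1 := fun e' => e (relIndex_eq_one.1 e')
      rw [n4] at e1
      have e4 : K.relIndex (CQ Q r) ≤ 4 := Nat.le_of_dvd (by norm_num) (Dvd.intro_left _ e1)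
      generalize K.relIndex (CQ Q r) = n at e1 e3 e4 ⊢
      generalize Nat.card K = m at e1 e2
      interval_cases n <;> omega
    refine h.cent_of_step (B := K) (c.pg.to_le (inf_le_left.trans inf_le_left))
      (by rw [show 15 = 3 * 5 from rfl, pow_mul, hx3, one_pow]) (fun p hp => ?_)
      (mem_centralizer_iff_commute.2 fun z hz => ((mK z).1 hz).2)
    refine (mul_mem_iff_of_index_two (H := K.subgroupOf (CQ Q r)) h3 (a := ⟨_, nZ p hp⟩)
      (b := ⟨_, inv_mem hp⟩)).2 ?_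
    simp only [mem_subgroupOf]
    rw [K.inv_mem_iff]
    simp only [mK, nZ p hp, hp, true_and]
    constructor
    · intro e
      calc p * x = x⁻¹ * (x * p * x⁻¹ * x) * x := by group
        _ = _ := by rw [e]; group
    · intro e
      rw [← e, mul_inv_cancel_right, e]
  have cx := mem_centralizer_iff_commute.1 hxZ
  have hZ' : CQ Q r ⊓ CQ Q r ^ᶜ (η : G) = ⊥ := by
    rw [eq_bot_iff]
    rintro z ⟨hz1, hz2⟩
    obtain ⟨y, hy, rfl⟩ := mem_cj'.1 hz2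
    exact five a b η h1 h2 _ hz1.1 (ca _ hz1) ((cb y hy).conj _)
  have hle : CQ Q r ^ᶜ (η : G) ≤ Q := cj_le_of_mem_normalizer inf_le_left η.2
  have hsup : CQ Q r ⊔ CQ Q r ^ᶜ (η : G) = Q := by
    refine eq_of_le_of_card_ge (sup_le inf_le_left hle) ?_
    have := H1.card_sup_mul_card_inf_of_le_normalizer (H := CQ Q r) (N := CQ Q r ^ᶜ (η : G))
      (le_normalizer_of_le_centralizer fun a ha =>
        mem_centralizer_iff_commute.2 fun b hb => c.comm (hle hb) ha.1)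
    rw [hZ', card_bot, card_cj, n4] at this
    omega
  refine hxQ (c.cent h ?_)
  rw [← hsup, centralizer_sup]
  refine ⟨hxZ, mem_centralizer_iff_commute.2 fun z hz => ?_⟩
  obtain ⟨y, hy, rfl⟩ := mem_cj'.1 hz
  have := ((cq _ hη' y hy).mul_left (show Commute x y from (cx y hy).symm).inv_left).eq
  rw [mul_inv_cancel_right] at this
  calc _ = η * (y * ((η : G)⁻¹ * x * η)) * (η : G)⁻¹ := by group
    _ = _ := by rw [← this]; group

theorem cent_two {r s : G} (hr : Inv Q r) (hs : Inv Q s) (hrs : Inv Q (r * s))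
    (hZ : CQ Q s = CQ Q r) (h16 : Nat.card Q = 16) {w : G} (hw : w ∈ Q) (hw1 : w ≠ 1) {g : G}
    (hg : g * w = w * g) : g ^ 4 = 1 := by
  obtain ⟨t, ht, e⟩ := c.stab h h16 hw
  obtain ⟨k, hk, e2⟩ := c.conjI ht hr
  have h1 : k * w * k⁻¹ ∈ Q := conj_mem_of_mem_normalizer hk hw
  have h2 : k * w * k⁻¹ ∈ CQ Q r := mem_CQ.2 ⟨h1, by
    have := ((show Commute _ _ from c.comm e2 h1).inv_left.mul_left
      ((show Commute t w from e).conj k)).eq
    rwa [show (k * t * k⁻¹ * r⁻¹)⁻¹ * (k * t * k⁻¹) = r by group] at this⟩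
  have h3 := c.no_three h hr hs hrs hZ h16 h2 (by simpa using hw1) (x := k * g ^ 20 * k⁻¹)
    (((show Commute g w from hg).pow_left 20).conj k).eq
    (by rw [conj_pow, ← pow_mul, h.pow60]; simp)
  rw [conj_eq_one_iff] at h3
  by_contra h4
  exact hw1 (h.eq_one_of_comm5 (u := g ^ 4) (by rw [← pow_mul, h3]) h4
    ((show Commute w g from hg.symm).pow_right 4).eq (c.sq w hw) (by norm_num))

theorem dichotomy (T : Subgroup G) (hT : IsPGroup 2 T) (hQT : Q ≤ T) :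
    IsStronglyClosed Q T ∨ ∀ t : G, orderOf t = 2 → IsPGroup 2 (centralizer ({t} : Set G)) := by
  haveI := Fact.mk Nat.prime_two
  rw [or_iff_not_imp_left]
  intro hh
  obtain ⟨w, hw, g, h1, h2⟩ : ∃ w ∈ Q, ∃ g, g * w * g⁻¹ ∈ T ∧ g * w * g⁻¹ ∉ Q := by
    by_contra! e
    exact hh ⟨hQT, e⟩
  have h3 : g * w * g⁻¹ ∈ Q ^ᶜ g := cj_mem g hw
  generalize g * w * g⁻¹ = t at h1 h2 h3
  have ht : Inv Q t := ⟨c.wc2 h hT hQT h1, h2, (c.cj g).mul_self h3 ▸ one_mem _⟩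
  obtain ⟨S, hS, hCS⟩ := exists_isSylowIn_le (c.pg.to_le (inf_le_left : CQ Q t ≤ Q)) inf_le_right
  obtain ⟨y, hy, hyS⟩ := hS.exists_cj_le (c.cj g).pg fun q hq =>
    mem_centralizer_singleton_iff.2 ((c.cj g).comm hq h3)
  have h4 := cj_mem y h3
  rw [mem_centralizer_singleton_iff.1 hy, mul_inv_cancel_right] at h4
  rw [cj_cj] at hyS h4
  generalize y * g = k at hyS h4
  have c' := c.cj k
  have hCN : CQ Q t ≤ 𝐍(Q ^ᶜ k) := hCS.trans (c'.wc2 h hS.isP hyS)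
  have hD : Q ⊓ Q ^ᶜ k = ⊥ := by
    by_contra e
    have h5 : Q ^ᶜ k ≤ 𝐂((Q ⊓ Q ^ᶜ k : Subgroup G)) := fun q hq =>
      mem_centralizer_iff_commute.2 fun b hb => c'.comm hb.2 hq
    have := c.wc h (h5.trans (c.cent_le h _ inf_le_left e t ht (h5 h4)))
    exact h2 (cj_eq_of_mem_normalizer this ▸ h4)
  have hD' : ∀ a ∈ Q, a ∈ Q ^ᶜ k → a = 1 := fun a h1 h2 => mem_bot.1 (hD ▸ mem_inf.2 ⟨h1, h2⟩)
  have n4 : Nat.card (CQ Q t) = 4 := by
    have := c'.rel (c.pg.to_le (inf_le_left : CQ Q t ≤ Q)) hCN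
    rw [show Q ^ᶜ k ⊓ CQ Q t = ⊥ from eq_bot_iff.2 fun a ha => hD' a ha.2.1 ha.1, card_bot] at this
    exact le_antisymm this (c.four_le h ht)
  have h16 : Nat.card Q = 16 := by rw [c.card_Q h ht, n4]
  obtain ⟨⟨z, hz⟩, hz1⟩ := ne_bot_iff_exists_ne_one.1
    ((one_lt_card_iff_ne_bot (CQ Q t)).1 (by omega))
  have hz1' : z ≠ 1 := fun e => hz1 (Subtype.ext e)
  have hzI : Inv (Q ^ᶜ k) z := ⟨hCN hz, fun e => hz1' (hD' z hz.1 e), c.mul_self hz.1 ▸ one_mem _⟩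
  have n4' : Nat.card (CQ (Q ^ᶜ k) z) = 4 :=
    Nat.mul_self_inj.1 ((c'.card_Q h hzI).symm.trans ((card_cj Q k).trans h16))
  have hCH : CQ (Q ^ᶜ k) z ≤ 𝐍(Q) := fun a ha => c.cent_elt h ht hz hz1' (mem_CQ.1 ha).2.symm
  obtain ⟨r, hr, s, hs, i1, i2, i3⟩ := exists_rs hCH (fun r hr => c'.mul_self hr.1 ▸ one_mem _) (by
    rw [show Q ⊓ CQ (Q ^ᶜ k) z = ⊥ from eq_bot_iff.2 fun a ha => hD' a ha.1 ha.2.1, card_bot, n4']
    norm_num)
  have hZ : ∀ p ∈ CQ (Q ^ᶜ k) z, Inv Q p → CQ Q p = CQ Q t := fun p hp hpI => by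
    refine (eq_of_le_of_card_ge (fun a (ha : a ∈ CQ Q t) => mem_CQ.2 ⟨ha.1, ?_⟩)
      (c.card_CQ_eq h hpI ht).le).symm
    have := hD' (p * a * p⁻¹ * a⁻¹)
      (Q.mul_mem (conj_mem_of_mem_normalizer hpI.mem ha.1) (Q.inv_mem ha.1)) (by
        rw [mul_assoc, mul_assoc, ← mul_assoc a]
        exact Subgroup.mul_mem _ hp.1 (conj_mem_of_mem_normalizer (hCN ha) (Subgroup.inv_mem _ hp.1)))
    rwa [mul_inv_eq_one, mul_inv_eq_iff_eq_mul] at this
  have key := fun {w} => c.cent_two h i1 i2 i3 ((hZ s hs i2).trans (hZ r hr i1).symm) h16 (w := w)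
  obtain ⟨T0, hT0, hCT⟩ := exists_isSylowIn_le (c'.pg.to_le inf_le_left) hCH
  intro j hj
  have hj2 : j * j = 1 := by rw [← pow_two, ← hj, pow_orderOf_eq_one]
  have hj1 : j ≠ 1 := fun e => by simp [e] at hj
  obtain ⟨m, -, hm⟩ := (c.syl_top h hT0).exists_cj_le (R := zpowers j)
    (IsPGroup.of_card (n := 1) (by rw [Nat.card_zpowers, hj, pow_one])) le_top
  have hp := hm (cj_mem m (mem_zpowers j))
  have hp2 : m * j * m⁻¹ * (m * j * m⁻¹) = 1 := by rw [conj_mul, hj2]; simp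
  obtain ⟨n, hn⟩ : ∃ n, n * j * n⁻¹ ∈ Q := by
    have aux : ∀ p ∈ CQ (Q ^ᶜ k) z, Inv Q p → m * j * m⁻¹ * p ∈ Q → ∃ n, n * j * n⁻¹ ∈ Q := by
      intro p hp hpI e
      have pp := c'.mul_self hp.1
      obtain ⟨v, hv, e1⟩ := c.free h hpI (mem_CQ.2 ⟨e, by
        have qq := c.mul_self e
        calc p * (m * j * m⁻¹ * p) = (m * j * m⁻¹ * (m * j * m⁻¹)) * p * (m * j * m⁻¹ * p) := by
              rw [hp2, one_mul]
          _ = m * j * m⁻¹ * (m * j * m⁻¹ * p * (m * j * m⁻¹ * p)) := by group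
          _ = m * j * m⁻¹ * (p * p) := by rw [qq, pp]
          _ = _ := by group⟩)
      rw [c.comm (conj_mem_of_mem_normalizer hpI.mem hv) hv] at e1
      refine ⟨k⁻¹ * v⁻¹ * m, ?_⟩
      have e2 : k⁻¹ * v⁻¹ * m * j * (k⁻¹ * v⁻¹ * m)⁻¹ = k⁻¹ * p * k := by
        calc _ = k⁻¹ * v⁻¹ * (m * j * m⁻¹ * p) * p⁻¹ * v * k := by group
          _ = k⁻¹ * p * v * (p * p)⁻¹ * v * k := by rw [e1]; group
          _ = k⁻¹ * p * (v * v) * k := by rw [pp]; group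
          _ = _ := by rw [c.mul_self hv, mul_one]
      rw [e2]
      exact mem_cj.1 hp.1
    rcases c.cosets h hT0.isP hT0.le (hCT hr) i1 i2 i3 hp with e | e | e | e
    exacts [⟨m, e⟩, aux r hr i1 e, aux s hs i2 e, aux _ (mul_mem hr hs) i3 e]
  refine isPGroup_of_pow (k := 2) fun g hg => ?_
  have := key hn (by simpa using hj1)
    ((show Commute g j from mem_centralizer_singleton_iff.1 hg).conj n).eq
  rwa [conj_pow, conj_eq_one_iff] at this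

end Cfg

end H8.Six
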