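import Mathlib
import Cfsg.Agent.Base
import Cfsg.Agent.Lib.Six8.A6
import Cfsg.Agent.Lib.Six8.Cfg

/-! Groups with element orders at most six: extensions of abelian normal subgroups. -/

set_option autoImplicit false

namespace H8.Six

open Subgroup Equiv

/-- An extension of an elementary abelian `2`-group by `A₅`. -/
def QA (G : Type*) [Group G] : Prop :=
  ∃ f : G →* A5, Function.Surjective f ∧ ∀ a, f a = 1 → a ^ 2 = 1

/-- The nonsolvable groups with element orders at most six. -/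
def Str (G : Type*) [Group G] : Prop :=
  QA G ∨ Nonempty (G ≃* A6) ∨ Nonempty (G ≃* Perm (Fin 5)) ∨ Nonempty (G ≃* Perm (Fin 6))

variable {G : Type*} [Group G]

theorem Str.fr3 (h : Str G) : QA G ∨ HasFr G 3 3 := by
  rcases h with h | ⟨⟨e⟩⟩ | ⟨⟨e⟩⟩ | ⟨⟨e⟩⟩
  · exact .inl h
  · exact .inr (fr_A6.map (f := e.symm.toMonoidHom) e.symm.injective)
  · exact .inr ((fr_A5.map (subtype_injective _)).map (f := e.symm.toMonoidHom) e.symm.injective)
  · exact .inr ((fr_A6.map (subtype_injective _)).map (f := e.symm.toMonoidHom) e.symm.injective)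

theorem Str.fr4 (h : Str G) : QA G ∨ HasFr G 4 2 := by
  rcases h with h | ⟨⟨e⟩⟩ | ⟨⟨e⟩⟩ | ⟨⟨e⟩⟩
  · exact .inl h
  · exact .inr (fr_A6'.map (f := e.symm.toMonoidHom) e.symm.injective)
  · exact .inr (fr_S5.map (f := e.symm.toMonoidHom) e.symm.injective)
  · exact .inr ((fr_A6'.map (subtype_injective _)).map (f := e.symm.toMonoidHom) e.symm.injective)

theorem mul_pow_mem (M : Subgroup G) [M.Normal] {m c : G} (hm : m ∈ M) {n : ℕ} (hc : c ^ n = 1) :
    (m * c) ^ n ∈ M := by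
  rw [← QuotientGroup.eq_one_iff, QuotientGroup.mk_pow, QuotientGroup.mk_mul,
    (QuotientGroup.eq_one_iff m).2 hm, one_mul, ← QuotientGroup.mk_pow, hc, QuotientGroup.mk_one]

theorem mk_ker (M : Subgroup G) [M.Normal] [IsMulCommutative M] (g : G)
    (hg : QuotientGroup.mk' M g = 1) : g ∈ centralizer (M : Set G) :=
  le_centralizer M ((QuotientGroup.eq_one_iff g).1 hg)

variable [Finite G]

theorem Ok.five_of_map (h : Ok G) {K : Type*} [Group K] [Finite K] {f : G →* K} {w : G}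
    (h5 : f w ^ 5 = 1) (h1 : f w ≠ 1) : w ^ 5 = 1 ∧ w ≠ 1 := by
  refine ⟨?_, fun e => h1 (by rw [e, map_one])⟩
  rcases h.cases w with e | e | e
  · exact absurd (eq_one_of_pow (by rw [← map_pow, e, map_one]) h5 (by norm_num)) h1
  · exact e
  · exact absurd (eq_one_of_pow (by rw [← map_pow, e, map_one]) h5 (by norm_num)) h1

theorem Ok.bot_of_five (h : Ok G) {M : Subgroup G} {p : ℕ} (hM : ∀ m ∈ M, m ^ p = 1)
    (hp : p.Coprime 5) {u : G} (h5 : u ^ 5 = 1) (h1 : u ≠ 1) (hu : u ∈ centralizer (M : Set G)) :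
    M = ⊥ :=
  eq_bot_iff.2 fun m hm => h.eq_one_of_comm5 h5 h1 (mem_centralizer_iff.1 hu m hm) (hM m hm) hp

theorem Ok.no_fr (h : Ok G) (M : Subgroup G) [M.Normal] [IsMulCommutative M] {p n : ℕ}
    (hpn : p = 3 ∧ n = 3 ∨ p = 2 ∧ n = 4) (hM : ∀ m ∈ M, m ^ p = 1) {K : Type*} [Group K]
    {f : G →* K} (hf : Function.Surjective f) (hk : ∀ g, f g = 1 → g ∈ centralizer (M : Set G))
    (hK : HasFr K n p) : M = ⊥ := by
  haveI : Finite K := Finite.of_surjective f hf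
  obtain ⟨N, c', h1, h2, h3, h4, a', ha, η', h5, h6⟩ := hK
  have hp : p.Prime := by rcases hpn with ⟨rfl, -⟩ | ⟨rfl, -⟩ <;> norm_num
  obtain ⟨c, rfl, hc, h0⟩ : ∃ c, f c = c' ∧ c ^ n = 1 ∧ ∀ m ∈ M, (m * c) ^ n = 1 := by
    rcases hpn with ⟨rfl, rfl⟩ | ⟨rfl, rfl⟩
    · obtain ⟨c, e, hc⟩ := h.lift3 hf h1
      exact ⟨c, e, hc, fun m hm => h.pow3 (k := 2) (by
        rw [pow_two, pow_mul]; exact hM _ (mul_pow_mem M hm hc))⟩
    · obtain ⟨c, e, hc⟩ := h.lift4 hf h1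
      exact ⟨c, e, hc, fun m hm => h.pow4 (k := 3) (by
        rw [show 2 ^ 3 = 4 * 2 from rfl, pow_mul]; exact hM _ (mul_pow_mem M hm hc))⟩
  have key := frob M hf hk N c n (by omega) h2 h3
    (fun m hm e => eq_one_of_pow (hM m hm) e ((Nat.Prime.coprime_iff_not_dvd hp).2 h4))
    (fun m hm => (h0 m hm).trans hc.symm)
  obtain ⟨a, rfl⟩ := hf a'
  obtain ⟨η, rfl⟩ := hf η'
  obtain ⟨e1, e2⟩ := h.five_of_map (f := f) (w := a * (η * a * η⁻¹)) (by simpa using h5)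
    (by simpa using h6)
  exact h.bot_of_five hM (by rcases hpn with ⟨rfl, -⟩ | ⟨rfl, -⟩ <;> norm_num) e1 e2
    (mul_mem (key a ha) (Normal.conj_mem inferInstance _ (key a ha) η))

/-- Normal subgroups of order prime to `5 p` in a quotient centralise a normal `p`-subgroup. -/
theorem Ok.cent_of_five (h : Ok G) (M : Subgroup G) [M.Normal] [IsMulCommutative M] {p : ℕ}
    (hM : ∀ m ∈ M, m ^ p = 1) (hp : p.Coprime 5) {K : Type*} [Group K] {f : G →* K}
    (hf : Function.Surjective f) (hk : ∀ g, f g = 1 → g ∈ centralizer (M : Set G))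
    (N : Subgroup K) [hn : N.Normal] {e : ℕ} (hN : ∀ a ∈ N, a ^ e = 1) (he : e.Coprime 5)
    (hc : p.Coprime (Nat.card N)) {u : G} (h5 : u ^ 5 = 1) (h1 : u ≠ 1) :
    ∀ g, f g ∈ N → g ∈ centralizer (M : Set G) := by
  haveI : Finite K := Finite.of_surjective f hf
  by_cases hu : f u = 1
  · rw [h.bot_of_five hM hp h5 h1 (hk u hu)]
    exact fun g _ => mem_centralizer_iff.2 fun m hm => by rw [mem_bot.1 hm, one_mul, mul_one]
  have h5' : f u ^ 5 = 1 := by rw [← map_pow, h5, map_one]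
  refine frob M hf hk N u 5 (by norm_num) (fun a ha => hn.conj_mem a ha _) (fun i hi hi5 a ha hc => ?_)
    (fun m hm e => eq_one_of_pow (hM m hm) e hc)
    (norm_of_fpf M (h5 ▸ one_mem _) fun m hm e => h.eq_one_of_comm5 h5 h1 e (hM m hm) hp)
  refine (h.of_surjective hf).eq_one_of_comm5 (u := f u ^ i)
    (by rw [← pow_mul, mul_comm, pow_mul, h5', one_pow]) (fun e => hu (eq_one_of_pow e h5' ?_))
    hc.symm (hN a ha) he
  interval_cases i <;> norm_num

theorem Ok.inverts5 (h : Ok G) {N : Subgroup G} [N.Normal] (hN : ∀ x ∈ N, x ^ 5 = 1) {t : G}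
    (ht : t * t = 1) (ht1 : t ≠ 1) : ∀ x ∈ N, t * x * t⁻¹ = x⁻¹ := by
  intro x hx
  have h1 : MonoidHom.FixedPointFree (MulAut.conjNormal t : MulAut N) := fun y hy => by
    by_contra hy1
    have e : t * y * t⁻¹ = y := by simpa using congrArg Subtype.val hy
    exact ht1 (h.eq_one_of_comm5 (hN y y.2) (fun e => hy1 (Subtype.ext e))
      (mul_inv_eq_iff_eq_mul.1 e) (by rwa [pow_two]) (by norm_num : Nat.Coprime 2 5))
  have h2 := h1.coe_eq_inv_of_involutive fun y => by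
    rw [← MulAut.mul_apply, ← map_mul, ht, map_one, MulAut.one_apply]
  simpa using congrArg Subtype.val (congrFun h2 ⟨x, hx⟩)

theorem comm_of_inverts {N : Subgroup G} {t : G} (h : ∀ x ∈ N, t * x * t⁻¹ = x⁻¹) :
    IsMulCommutative N := ⟨⟨fun a b => Subtype.ext (by
  have := h _ (mul_mem a.2 b.2)
  rw [← conj_mul, h a a.2, h b b.2, ← mul_inv_rev, inv_inj] at this
  exact this.symm)⟩⟩

/-- A nontrivial normal `5`-subgroup lies in a normal self-centralising Sylow `5`-subgroup. -/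
theorem Ok.five_struct (h : Ok G) {N : Subgroup G} [N.Normal] (hN : ∀ x ∈ N, x ^ 5 = 1)
    (h1 : N ≠ ⊥) {t : G} (ht : t * t = 1) (ht1 : t ≠ 1) :
    ∃ (P : Subgroup G) (_ : P.Normal), (∀ x ∈ P, x ^ 5 = 1) ∧ P ≠ ⊥ ∧ IsMulCommutative P ∧
      ¬ 5 ∣ Nat.card (G ⧸ P) := by
  obtain ⟨⟨u, hu⟩, hu1⟩ := ne_bot_iff_exists_ne_one.1 h1
  have hu1' : u ≠ 1 := fun e => hu1 (Subtype.ext e)
  have hP : ∀ x ∈ centralizer (N : Set G), x ^ 5 = 1 := fun x hx =>
    h.comm5 (hN u hu) hu1' (mem_centralizer_iff.1 hx u hu).symm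
  haveI := comm_of_inverts (h.inverts5 hN ht ht1)
  refine ⟨centralizer (N : Set G), inferInstance, hP, fun e => h1 (eq_bot_iff.2 (e ▸ le_centralizer N)),
    comm_of_inverts (h.inverts5 hP ht ht1), fun h5 => ?_⟩
  obtain ⟨v, hv, hv1⟩ := exists_five h5
  obtain ⟨g, rfl⟩ := QuotientGroup.mk_surjective v
  have e := (h.quot (centralizer (N : Set G))).eq_one_of_comm5 (g := (t : G ⧸ _)) hv hv1 (n := 2) (by
    rw [← QuotientGroup.mk_mul, ← QuotientGroup.mk_mul, QuotientGroup.eq, mem_centralizer_iff]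
    intro x hx
    have e1 := h.inverts5 hN ht ht1 x hx
    have e2 := h.inverts5 hN ht ht1 _ (Normal.conj_mem inferInstance x hx g)
    calc x * ((t * g)⁻¹ * (g * t)) = (t * g)⁻¹ * (t * (g * x * g⁻¹) * t⁻¹) * (t * g) *
          ((t * g)⁻¹ * (g * t)) := by group
      _ = (t * g)⁻¹ * (g * (t * x * t⁻¹)⁻¹⁻¹ * g⁻¹) * (g * t) := by rw [e2, e1]; group
      _ = _ := by group)
    (by rw [← QuotientGroup.mk_pow, pow_two, ht, QuotientGroup.mk_one]) (by norm_num)
  exact ht1 (eq_one_of_pow (by rwa [pow_two]) (hP t ((QuotientGroup.eq_one_iff t).1 e))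
    (by norm_num : Nat.Coprime 2 5))

theorem exists_inv (h2 : 2 ∣ Nat.card G) : ∃ t : G, t * t = 1 ∧ t ≠ 1 := by
  haveI := Fact.mk Nat.prime_two
  obtain ⟨t, ht⟩ := exists_prime_orderOf_dvd_card' 2 h2
  exact ⟨t, by rw [← pow_two, ← ht, pow_orderOf_eq_one], fun e => by simp [e] at ht⟩

theorem Ok.two_dvd (h : Ok G) (hs : ¬ Group.IsSolvable G) : 2 ∣ Nat.card G := by
  by_contra h2
  refine hs (H8.isSolvable_of_two_primes Nat.prime_three Nat.prime_five fun r hr hd => ?_)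
  rcases h.prime_dvd hr hd with e | e | e
  exacts [absurd (e ▸ hd) h2, Or.inl e, Or.inr e]

theorem Ok.five_dvd (h : Ok G) (hs : ¬ Group.IsSolvable G) : 5 ∣ Nat.card G := by
  by_contra h5
  exact hs (h.solvable h5)

theorem Ok.ext_step (h : Ok G) (hs : ¬ Group.IsSolvable G) (M : Subgroup G) [M.Normal]
    [IsMulCommutative M] {p : ℕ} (hp : p.Prime) (hd : p ∣ Nat.card M) (hM : ∀ m ∈ M, m ^ p = 1)
    (hS : Str (G ⧸ M)) : QA G := by
  have hM1 : M ≠ ⊥ := by
    rintro rfl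
    exact hp.ne_one (by simpa using hd)
  have hm := QuotientGroup.mk'_surjective M
  haveI := Fact.mk Nat.prime_two
  rcases h.prime_dvd hp (hd.trans (card_subgroup_dvd_card M)) with rfl | rfl | rfl
  · rcases hS.fr4 with ⟨f, hf, hk⟩ | hF
    · have hQ : IsPGroup 2 (f.comp (QuotientGroup.mk' M)).ker :=
        isPGroup_of_pow (k := 2) fun g hg => by
          rw [pow_two, pow_mul]
          exact hM _ ((QuotientGroup.eq_one_iff _).1 (hk (g : G ⧸ M) hg))
      obtain ⟨u, t, h1, h2, h3, h4, -⟩ := h.exists_d10 (hf.comp hm) hQ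
      exact ⟨_, hf.comp hm, h.d10 hQ h1 h2 h3 h4⟩
    · exact absurd (h.no_fr M (.inr ⟨rfl, rfl⟩) hM hm (mk_ker M) hF) hM1
  · rcases hS.fr3 with ⟨f, hf, hk⟩ | hF
    · obtain ⟨u, h5, h1⟩ := exists_five (h.five_dvd hs)
      obtain ⟨k, hk2⟩ := (isPGroup_of_pow (p := 2) (k := 1) (P := f.ker) hk).exists_card_eq
      exact absurd (h.no_fr M (.inl ⟨rfl, rfl⟩) hM (f := f.comp (QuotientGroup.mk' M)) (hf.comp hm)
        (h.cent_of_five M hM (by norm_num) hm (mk_ker M) f.ker hk (by norm_num)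
          (hk2 ▸ Nat.Coprime.pow_right _ (by norm_num)) h5 h1) fr_A5) hM1
    · exact absurd (h.no_fr M (.inl ⟨rfl, rfl⟩) hM hm (mk_ker M) hF) hM1
  · obtain ⟨t, ht, ht1⟩ := exists_inv (h.two_dvd hs)
    obtain ⟨P, _, -, -, hc, h5⟩ := h.five_struct hM hM1 ht ht1
    exact absurd (H1.isSolvable_of_normal_of_quotient P (Group.isSolvable_of_comm hc.is_comm.comm)
      ((h.quot P).solvable h5)) hs

end H8.Six
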