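import Mathlib
import Cfsg.Agent.Base
import Cfsg.Agent.Lib.Six8.Ext
import Cfsg.Agent.Lib.Six8.Cent

/-! Solvable groups with element orders at most six: a normal `5`-subgroup. -/

set_option autoImplicit false

namespace H8.Six

open Subgroup

variable {G : Type*} [Group G]

/-- The action on a normal subgroup. -/
abbrev act (M : Subgroup G) [M.Normal] : G →* (MulAut.conjNormal : G →* MulAut M).range :=
  MonoidHom.rangeRestrict _

theorem conjNormal_eq_one {M : Subgroup G} [M.Normal] {g : G} :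
    (MulAut.conjNormal g : MulAut M) = 1 ↔ g ∈ centralizer (M : Set G) := by
  rw [mem_centralizer_iff, MulEquiv.ext_iff]
  refine ⟨fun h m hm => ?_, fun h m => Subtype.ext ?_⟩
  · have : g * m * g⁻¹ = m := by simpa using congrArg Subtype.val (h ⟨m, hm⟩)
    exact (mul_inv_eq_iff_eq_mul.1 this).symm
  · simp [← h m m.2]

theorem act_eq_one {M : Subgroup G} [M.Normal] {g : G} :
    act M g = 1 ↔ g ∈ centralizer (M : Set G) := Subtype.ext_iff.trans conjNormal_eq_one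

variable [Finite G]

theorem cent_of_cyclic (N : Subgroup G) [N.Normal] [IsCyclic N]
    (hN : Nat.card N = 4 ∨ Nat.card N = 5) {y : G} (hy : y ^ 3 = 1) :
    y ∈ centralizer (N : Set G) := by
  refine conjNormal_eq_one.1 (eq_one_of_pow (a := 3) (by rw [← map_pow, hy, map_one])
    pow_card_eq_one' ?_)
  rw [IsCyclic.card_mulAut]
  rcases hN with e | e <;> rw [e] <;> decide

theorem not_sq_dvd (V : Subgroup G) [V.Normal] [IsMulCommutative V] (hV : V ≠ ⊥) {q : ℕ}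
    (hq : q.Prime) (h1 : ∀ x : G, x ^ q ^ 2 = 1 → x ^ q = 1)
    (h2 : ∀ x : G, x ^ q = 1 → x ≠ 1 → ∀ v ∈ V, v * x = x * v → v = 1) : ¬ q ^ 2 ∣ Nat.card G := by
  intro hd
  haveI := Fact.mk hq
  obtain ⟨Q, hQ⟩ := Sylow.exists_subgroup_card_pow_prime q hd
  have h3 : ∀ x ∈ Q, x ^ q = 1 := fun x hx => h1 x (by
    rw [← hQ]; exact congrArg Subtype.val (pow_card_eq_one' (x := (⟨x, hx⟩ : Q))))
  have h4 : q ^ 2 ≠ 1 := (Nat.one_lt_pow two_ne_zero hq.one_lt).ne'
  have := H79.card_eq_prime_of_semiregular hV (le_normalizer_of_normal) h3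
    (by rintro rfl; exact h4 (by simpa using hQ.symm)) fun x hx hx1 => eq_bot_iff.2 fun v hv =>
      h2 x (h3 x hx) hx1 v hv.1 (mem_centralizer_singleton_iff.1 hv.2)
  rw [hQ, pow_two] at this
  exact hq.ne_one (Nat.eq_of_mul_eq_mul_left hq.pos (this.trans (mul_one q).symm))

theorem Ok.five_act (h : Ok G) [Group.IsSolvable G] {M : Subgroup G} [M.Normal]
    [IsMulCommutative M] (hM : H3.IsMinNormal M) {p : ℕ} (hp : p.Prime) (hp5 : p ≠ 5)
    (hMp : ∀ m ∈ M, m ^ p = 1) {u : G} (h5 : u ^ 5 = 1) (h1 : u ≠ 1) :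
    ∃ N : Subgroup (MulAut.conjNormal : G →* MulAut M).range,
      N.Normal ∧ N ≠ ⊥ ∧ ∀ a ∈ N, a ^ 5 = 1 := by
  have hs := (MulAut.conjNormal : G →* MulAut M).rangeRestrict_surjective
  have hc := (Nat.coprime_primes hp Nat.prime_five).2 hp5
  haveI := Group.isSolvable_of_surjective hs
  obtain ⟨N, hN, -, _, q, hq, hd, hNq, hNp⟩ := H3.exists_normal_elementary_le
    (⊤ : Subgroup (MulAut.conjNormal : G →* MulAut M).range) (fun e => hM.ne_bot
      (h.bot_of_five hMp hc h5 h1 (act_eq_one.1 (mem_bot.1 (e ▸ mem_top _))))) inferInstance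
  haveI := hN.normal
  haveI := Fact.mk hq
  by_cases h5q : q = 5
  · exact ⟨N, hN.normal, hN.ne_bot, h5q ▸ hNq⟩
  refine (hN.ne_bot (eq_bot_iff.2 fun a ha => ?_)).elim
  obtain ⟨g, rfl⟩ := hs a
  refine act_eq_one.2 ?_
  by_cases hpq : p = q
  · subst hpq
    obtain ⟨k, hk⟩ := (H3.isPGroup_of_pow_eq_one hMp).exists_card_eq
    obtain ⟨b, hb, hb1⟩ := hNp.exists_fixed_point_of_prime_dvd_card_of_fixed_point (α := M)
      (hk ▸ dvd_pow_self p fun e => hM.ne_bot (card_eq_one.1 (by simpa [e] using hk)))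
      (a := 1) fun a => map_one (a.1.1 : MulAut M)
    rcases hM.inf_eq_bot_or_le (centralizer (N.comap (act M) : Set G)) with e | e
    · refine absurd (Subtype.ext (mem_bot.1 (e ▸ ⟨b.2, mem_centralizer_iff.2 fun x hx => ?_⟩))).symm hb1
      have : x * b * x⁻¹ = b := congrArg Subtype.val (hb ⟨act M x, hx⟩)
      exact mul_inv_eq_iff_eq_mul.1 this
    · exact le_centralizer_iff.1 e ha
  · obtain ⟨k, hk⟩ := hNp.exists_card_eq
    exact h.cent_of_five M hMp hc hs (fun _ => act_eq_one.1) N hNq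
      ((Nat.coprime_primes hq Nat.prime_five).2 h5q)
      (hk ▸ Nat.Coprime.pow_right _ ((Nat.coprime_primes hp hq).2 hpq)) h5 h1 g ha

theorem Ok.no_four (h : Ok G) [Group.IsSolvable G] {M : Subgroup G} [M.Normal]
    [IsMulCommutative M] (hM : H3.IsMinNormal M) (hMp : ∀ m ∈ M, m ^ 3 = 1) {u : G}
    (h5 : u ^ 5 = 1) (h1 : u ≠ 1) {s : G} (h4 : s ^ 4 = 1) : s ^ 2 = 1 := by
  by_contra h2
  haveI := Fact.mk Nat.prime_five
  have hs := (MulAut.conjNormal : G →* MulAut M).rangeRestrict_surjective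
  obtain ⟨N, hN, hN1, hN5⟩ := h.five_act hM Nat.prime_three (by norm_num) hMp h5 h1
  obtain ⟨k, hk⟩ := (H3.isPGroup_of_pow_eq_one hN5).exists_card_eq
  refine hN1 (eq_bot_iff.2 fun a ha => ?_)
  obtain ⟨g, rfl⟩ := hs a
  refine act_eq_one.2 (frob M hs (fun _ => act_eq_one.1) N s (orderOf (act M s)) (orderOf_pos _)
    (fun a ha => hN.conj_mem a ha _) (fun i hi hn a ha e => ?_)
    (fun m hm e => eq_one_of_pow (hMp m hm) e (hk ▸ Nat.Coprime.pow_right _ (by norm_num)))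
    (norm_of_fpf M (act_eq_one.1 (by rw [map_pow, pow_orderOf_eq_one])) fun m hm e => ?_) g ha)
  · by_contra ha1
    exact pow_ne_one_of_lt_orderOf hi.ne' hn ((h.of_surjective hs).eq_one_of_comm5 (hN5 a ha) ha1 e
      (n := 4) (by rw [← pow_mul, mul_comm, pow_mul, ← map_pow, h4, map_one, one_pow]) (by norm_num))
  · by_contra hm1
    exact h2 (h.comm3 (hMp m hm) hm1 e.symm h4)

theorem Ok.three_cent (h : Ok G) [Group.IsSolvable G] {M : Subgroup G} [M.Normal]
    [IsMulCommutative M] (hM : H3.IsMinNormal M) (hMp : ∀ m ∈ M, m ^ 2 = 1) {u : G}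
    (h5 : u ^ 5 = 1) (h1 : u ≠ 1) {y : G} (hy : y ^ 3 = 1) : y ∈ centralizer (M : Set G) := by
  haveI := Fact.mk Nat.prime_five
  have hs := (MulAut.conjNormal : G →* MulAut M).rangeRestrict_surjective
  obtain ⟨N, hN, hN1, hN5⟩ := h.five_act hM Nat.prime_two (by norm_num) hMp h5 h1
  obtain ⟨k, hk⟩ := (H3.isPGroup_of_pow_eq_one hN5).exists_card_eq
  have h25 := not_sq_dvd M hM.ne_bot Nat.prime_five (fun _ => h.pow5) fun x hx hx1 v hv e =>
    h.eq_one_of_comm5 hx hx1 e (hMp v hv) (by norm_num)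
  have hk1 : k = 1 := by
    rcases k with _ | _ | k
    · exact absurd (card_eq_one.1 hk) hN1
    · rfl
    · exact absurd ((pow_dvd_pow 5 (by omega)).trans (hk ▸ (card_subgroup_dvd_card N).trans
        (card_dvd_of_surjective _ hs))) h25
  rw [hk1, pow_one] at hk
  haveI := isCyclic_of_prime_card hk
  have hy' : act M y ^ 3 = 1 := by rw [← map_pow, hy, map_one]
  obtain ⟨⟨a, ha⟩, ha1⟩ := ne_bot_iff_exists_ne_one.1 hN1
  exact act_eq_one.1 ((h.of_surjective hs).eq_one_of_comm5 (hN5 a ha) (fun e => ha1 (Subtype.ext e))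
    (mem_centralizer_iff.1 (cent_of_cyclic N (.inr hk) hy') a ha).symm hy' (by norm_num))

theorem three_cent_aux (n : ℕ) : ∀ (G : Type*) [Group G] [Finite G] [Group.IsSolvable G],
    Nat.card G < n → Ok G → ∀ (Q : Subgroup G) [Q.Normal], IsPGroup 2 Q → ∀ u y : G, u ^ 5 = 1 →
    u ≠ 1 → y ^ 3 = 1 → y ∈ centralizer (Q : Set G) := by
  induction n with
  | zero => exact fun G _ _ _ h => absurd h (Nat.not_lt_zero _)
  | succ n ih =>
  intro G _ _ _ hn h Q hQn hQ u y h5 h1 hy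
  by_cases hQ1 : Q = ⊥
  · exact mem_centralizer_iff.2 fun m hm => by rw [mem_bot.1 (hQ1.le hm), one_mul, mul_one]
  obtain ⟨M, hM, hMQ, _, p, hp, hd, hMp, -⟩ := H3.exists_normal_elementary_le Q hQ1 inferInstance
  haveI := hM.normal
  haveI := Fact.mk Nat.prime_two
  obtain ⟨k, hk⟩ := (hQ.to_le hMQ).exists_card_eq
  obtain rfl := (Nat.prime_dvd_prime_iff_eq hp Nat.prime_two).1 (hp.dvd_of_dvd_pow (hk ▸ hd))
  have hm := QuotientGroup.mk'_surjective M
  haveI := hQn.map _ hm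
  have := ih (G ⧸ M) ((H3.card_quotient_lt M hM.ne_bot).trans_le (Nat.lt_succ_iff.1 hn)) (h.quot M)
    (Q.map (QuotientGroup.mk' M)) (hQ.map _) u y
    (by rw [← QuotientGroup.mk_pow, h5, QuotientGroup.mk_one])
    (fun e => h1 (eq_one_of_pow h5 (hMp u ((QuotientGroup.eq_one_iff u).1 e)) (by norm_num)))
    (by rw [← QuotientGroup.mk_pow, hy, QuotientGroup.mk_one])
  refine h.cent_of_step (hQ.to_le hMQ) (by rw [show 15 = 3 * 5 from rfl, pow_mul, hy, one_pow])
    (fun x hx => ?_) (h.three_cent hM hMp h5 h1 hy)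
  rw [← QuotientGroup.eq_one_iff]
  have e : (x : G ⧸ M) * y = y * x := mem_centralizer_iff.1 this _ ⟨x, hx, rfl⟩
  simp [← e]

theorem Ok.exists_normal_five (h : Ok G) [Group.IsSolvable G] {u y s : G} (h5 : u ^ 5 = 1)
    (h1 : u ≠ 1) (hy : y ^ 3 = 1) (hy1 : y ≠ 1) (h4 : s ^ 4 = 1) (h2 : s ^ 2 ≠ 1) :
    ∃ N : Subgroup G, N.Normal ∧ N ≠ ⊥ ∧ ∀ x ∈ N, x ^ 5 = 1 := by
  haveI := Fact.mk Nat.prime_two
  by_cases hO : Cfsg.pPrimeCore 2 G = ⊥
  · exact (hy1 (eq_one_of_pow hy (h.pow4_mem H1.isPGroup_pCore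
      (H1.centralizer_pCore_le_of_isSolvable hO (three_cent_aux _ G (Nat.lt_succ_self _) h _
        H1.isPGroup_pCore u y h5 h1 hy))) (by norm_num))).elim
  obtain ⟨M, hM, hMO, _, p, hp, hd, hMp, -⟩ := H3.exists_normal_elementary_le _ hO inferInstance
  haveI := hM.normal
  rcases h.prime_dvd hp (hd.trans (card_subgroup_dvd_card M)) with rfl | rfl | rfl
  · exact absurd (hd.trans (card_dvd_of_le hMO)) H1.not_dvd_card_pPrimeCore
  · exact absurd (h.no_four hM hMp h5 h1 h4) h2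
  · exact ⟨M, hM.normal, hM.ne_bot, hMp⟩

end H8.Six
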